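import Cfsg.Agent.Lib.Helper90.C2.Basic

set_option autoImplicit false

namespace Cfsg.Agent.Lib.Helper90.C2

open Matrix Module Cfsg.Agent.Lib.Helper95 Cfsg.Agent.Lib.Helper97

variable {ι : Type} [Fintype ι] [DecidableEq ι] {F : Type*} [Field F]

private theorem a1_exists_notMem {κ : Type*} [Fintype κ] (S : Finset κ)
    (h : S.card < Fintype.card κ) : ∃ x, x ∉ S := by
  by_contra hcon
  push Not at hcon
  have : S = Finset.univ := Finset.eq_univ_iff_forall.2 hcon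
  rw [this, Finset.card_univ] at h
  exact lt_irrefl _ h

/-- if column `j` of `g` vanishes at `a`, `b` then `g⁻¹ t g` fixes `e_j`. -/
private theorem a1_col (g : GL ι F) (a b : ι) (c : Fˣ) (j : ι)
    (ha : (g : Matrix ι ι F) a j = 0) (hb : (g : Matrix ι ι F) b j = 0) (i : ι) :
    ((g⁻¹ * (d1 a c * d1 b c⁻¹) * g : GL ι F) : Matrix ι ι F) i j = if i = j then 1 else 0 := by
  have hT : ∀ r : ι, (((d1 a c * d1 b c⁻¹ * g : GL ι F)) : Matrix ι ι F) r j =
      (g : Matrix ι ι F) r j := by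
    intro r
    rw [mul_assoc, Units.val_mul, Units.val_mul]
    unfold d1
    rw [dg_mul_apply, dg_mul_apply]
    by_cases hra : r = a
    · subst hra; rw [ha]; simp
    · by_cases hrb : r = b
      · subst hrb; rw [hb]; simp
      · simp [hra, hrb]
  rw [mul_assoc, Units.val_mul, Matrix.mul_apply, ← inv_mul_apply g i j]
  exact Finset.sum_congr rfl fun r _ => by rw [hT]

theorem hasW1_of_two_zeros (hn : 5 ≤ Fintype.card ι)
    (X : Subgroup (GL ι F)) (hX : HasMonoSL X)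
    (core : ∀ (g : GL ι F) (a b : ι), a ≠ b →
      (∀ c : Fˣ, IsMono ((g⁻¹ * (d1 a c * d1 b c⁻¹) * g : GL ι F) : Matrix ι ι F)) → ∀ j : ι,
      ((g : Matrix ι ι F) a j = 0 ∧ (g : Matrix ι ι F) b j = 0) ∨
        (∀ i, i ≠ a → i ≠ b → (g : Matrix ι ι F) i j = 0))
    (g : GL ι F) (hg : g ∈ X) (hgm : ¬ IsMono (g : Matrix ι ι F)) (j a b : ι) (hab : a ≠ b)
    (ha : (g : Matrix ι ι F) a j = 0) (hb : (g : Matrix ι ι F) b j = 0) : HasW1 X := by
  classical
  by_contra hW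
  have star : ∀ (j0 a0 b0 : ι), a0 ≠ b0 → (g : Matrix ι ι F) a0 j0 = 0 →
      (g : Matrix ι ι F) b0 j0 = 0 → ∀ j : ι,
      ((g : Matrix ι ι F) a0 j = 0 ∧ (g : Matrix ι ι F) b0 j = 0) ∨
        (∀ i, i ≠ a0 → i ≠ b0 → (g : Matrix ι ι F) i j = 0) := by
    intro j0 a0 b0 hab0 ha0 hb0
    refine core g a0 b0 hab0 fun c => ?_
    by_contra hm
    refine hW ⟨g⁻¹ * (d1 a0 c * d1 b0 c⁻¹) * g, ?_, hm, j0, j0, fun i hi => ?_⟩
    · exact X.mul_mem (X.mul_mem (X.inv_mem hg) (d2_mem hX hab0 c)) hg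
    · rw [a1_col g a0 b0 c j0 ha0 hb0, if_neg hi]
  obtain ⟨j', hj'⟩ := exists_row_ne_zero g a
  have hsupp : ∀ i, i ≠ a → i ≠ b → (g : Matrix ι ι F) i j' = 0 := by
    rcases star j a b hab ha hb j' with h | h
    · exact absurd h.1 hj'
    · exact h
  obtain ⟨a1, ha1⟩ := a1_exists_notMem ({a, b} : Finset ι)
    (lt_of_le_of_lt (Finset.card_le_two) (by omega))
  obtain ⟨b1, hb1⟩ := a1_exists_notMem ({a, b, a1} : Finset ι)
    (lt_of_le_of_lt (Finset.card_le_three) (by omega))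
  obtain ⟨b2, hb2⟩ := a1_exists_notMem ({a, b, a1, b1} : Finset ι)
    (lt_of_le_of_lt (Finset.card_le_four) (by omega))
  simp only [Finset.mem_insert, Finset.mem_singleton, not_or] at ha1 hb1 hb2
  obtain ⟨j'', hj''⟩ := exists_row_ne_zero g a1
  have s1 : ∀ i, i ≠ a1 → i ≠ b1 → (g : Matrix ι ι F) i j'' = 0 := by
    rcases star j' a1 b1 (Ne.symm hb1.2.2) (hsupp a1 ha1.1 ha1.2) (hsupp b1 hb1.1 hb1.2.1) j''
      with h | h
    · exact absurd h.1 hj''
    · exact h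
  have s2 : ∀ i, i ≠ a1 → i ≠ b2 → (g : Matrix ι ι F) i j'' = 0 := by
    rcases star j' a1 b2 (Ne.symm hb2.2.2.1) (hsupp a1 ha1.1 ha1.2) (hsupp b2 hb2.1 hb2.2.1) j''
      with h | h
    · exact absurd h.1 hj''
    · exact h
  refine hW ⟨g, hg, hgm, j'', a1, fun i hi => ?_⟩
  by_cases hib : i = b1
  · subst hib
    exact s2 i hi (Ne.symm hb2.2.2.2)
  · exact s1 i hi hib

end Cfsg.Agent.Lib.Helper90.C2
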