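import Cfsg.Agent.Lib.Helper90.C2.Basic

set_option autoImplicit false

namespace Cfsg.Agent.Lib.Helper90.C2

open Matrix Module Cfsg.Agent.Lib.Helper95 Cfsg.Agent.Lib.Helper97

variable {ι : Type} [Fintype ι] [DecidableEq ι] {F : Type*} [Field F]

theorem col_dichotomy [Fintype F] (hq : 5 ≤ Fintype.card F) (g : GL ι F) (a b : ι) (hab : a ≠ b)
    (h : ∀ c : Fˣ, IsMono ((g⁻¹ * (d1 a c * d1 b c⁻¹) * g : GL ι F) : Matrix ι ι F)) (j : ι) :
    ((g : Matrix ι ι F) a j = 0 ∧ (g : Matrix ι ι F) b j = 0) ∨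
      (∀ i, i ≠ a → i ≠ b → (g : Matrix ι ι F) i j = 0) := by
  classical
  by_contra hcon
  rw [not_or] at hcon
  obtain ⟨hab0, hk⟩ := hcon
  push Not at hk
  obtain ⟨k, hka, hkb, hk0⟩ := hk
  -- entries of `t_c g`
  obtain ⟨τ, hτ⟩ : ∃ τ : Fˣ → ι → F, ∀ c r, τ c r =
      (if r = a then (c : F) else 1) * (if r = b then ((c⁻¹ : Fˣ) : F) else 1) := ⟨_, fun _ _ => rfl⟩
  have hT : ∀ (c : Fˣ) (r : ι), (((d1 a c * d1 b c⁻¹ * g : GL ι F)) : Matrix ι ι F) r j =
      τ c r * (g : Matrix ι ι F) r j := by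
    intro c r
    rw [mul_assoc, Units.val_mul, Units.val_mul]
    unfold d1
    rw [dg_mul_apply, dg_mul_apply, hτ, ← mul_assoc]
    congr 2
    · by_cases hr : r = a
      · subst hr; simp
      · simp [hr]
    · by_cases hr : r = b
      · subst hr; simp
      · simp [hr]
  have hex : ∀ c : Fˣ, ∃ (i : ι) (lam : F), ∀ r,
      τ c r * (g : Matrix ι ι F) r j = lam * (g : Matrix ι ι F) r i := by
    intro c
    obtain ⟨i, hi⟩ := h c j
    refine ⟨i, ((g⁻¹ * (d1 a c * d1 b c⁻¹) * g : GL ι F) : Matrix ι ι F) i j, fun r => ?_⟩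
    rw [← hT]
    have h1 : (d1 a c * d1 b c⁻¹ * g : GL ι F) = g * (g⁻¹ * (d1 a c * d1 b c⁻¹) * g) := by group
    rw [h1, Units.val_mul, Matrix.mul_apply, Finset.sum_eq_single i]
    · ring
    · intro s _ hs
      rw [hi s hs, mul_zero]
    · intro hh
      exact absurd (Finset.mem_univ i) hh
  choose i lam hil using hex
  have hτk : ∀ c, τ c k = 1 := by
    intro c
    rw [hτ, if_neg hka, if_neg hkb, one_mul]
  have hτa : ∀ c : Fˣ, τ c a = c := by
    intro c
    rw [hτ, if_pos rfl, if_neg hab, mul_one]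
  have hτb : ∀ c : Fˣ, τ c b = ((c⁻¹ : Fˣ) : F) := by
    intro c
    rw [hτ, if_neg hab.symm, if_pos rfl, one_mul]
  have hτo : ∀ (c : Fˣ) r, r ≠ a → r ≠ b → τ c r = 1 := by
    intro c r hra hrb
    rw [hτ, if_neg hra, if_neg hrb, one_mul]
  have hlam : ∀ c, lam c ≠ 0 := by
    intro c hc
    have := hil c k
    rw [hτk, one_mul, hc, zero_mul] at this
    exact hk0 this
  have hinj : Function.Injective i := by
    intro c c' hcc
    have e1 := hil c k
    have e2 := hil c' k
    rw [hτk, one_mul] at e1 e2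
    rw [← hcc] at e2
    have hgk : (g : Matrix ι ι F) k (i c) ≠ 0 := by
      intro h0
      rw [h0, mul_zero] at e1
      exact hk0 e1
    have hll : lam c = lam c' := mul_right_cancel₀ hgk (e1.symm.trans e2)
    by_cases ha0 : (g : Matrix ι ι F) a j = 0
    · have hb0 : (g : Matrix ι ι F) b j ≠ 0 := fun hb0 => hab0 ⟨ha0, hb0⟩
      have e3 := hil c b
      have e4 := hil c' b
      rw [← hcc, ← hll, ← e3, hτb, hτb] at e4
      have := mul_right_cancel₀ hb0 e4
      have h5 : c'⁻¹ = c⁻¹ := Units.ext this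
      exact (inv_injective h5).symm
    · have e3 := hil c a
      have e4 := hil c' a
      rw [← hcc, ← hll, ← e3, hτa, hτa] at e4
      exact (Units.ext (mul_right_cancel₀ ha0 e4)).symm
  -- four units
  have hcardU : 4 ≤ Fintype.card Fˣ := by
    rw [Fintype.card_units]
    omega
  obtain ⟨f⟩ := Function.Embedding.nonempty_of_card_le (α := Fin 4) (β := Fˣ)
    (by rw [Fintype.card_fin]; exact hcardU)
  have hli : LinearIndependent F (g : Matrix ι ι F).col :=
    Matrix.linearIndependent_cols_iff_isUnit.2 ⟨g, rfl⟩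
  have hli4 : LinearIndependent F (fun n : Fin 4 => (g : Matrix ι ι F).col (i (f n))) :=
    hli.comp (fun n => i (f n)) (hinj.comp f.injective)
  have h4 := finrank_span_eq_card hli4
  rw [Fintype.card_fin] at h4
  have hle : Submodule.span F (Set.range fun n : Fin 4 => (g : Matrix ι ι F).col (i (f n))) ≤
      Submodule.span F (({(g : Matrix ι ι F).col j, Pi.single a 1, Pi.single b 1} : Finset (ι → F)) :
        Set (ι → F)) := by
    rw [Submodule.span_le]
    rintro _ ⟨n, rfl⟩
    have hv : (g : Matrix ι ι F).col (i (f n)) = (lam (f n))⁻¹ • ((g : Matrix ι ι F).col j +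
        ((((f n : Fˣ) : F) - 1) * (g : Matrix ι ι F) a j) • (Pi.single a 1 : ι → F) +
        (((((f n)⁻¹ : Fˣ) : F) - 1) * (g : Matrix ι ι F) b j) • (Pi.single b 1 : ι → F)) := by
      funext r
      have e1 := hil (f n) r
      have hl := hlam (f n)
      simp only [Matrix.col_apply, Pi.smul_apply, Pi.add_apply, smul_eq_mul, Pi.single_apply]
      rw [eq_inv_mul_iff_mul_eq₀ hl, ← e1]
      by_cases hra : r = a
      · subst hra
        rw [hτa, if_pos rfl, if_neg hab]
        ring
      · by_cases hrb : r = b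
        · subst hrb
          rw [hτb, if_neg hra, if_pos rfl]
          ring
        · rw [hτo _ r hra hrb, if_neg hra, if_neg hrb]
          ring
    change (g : Matrix ι ι F).col (i (f n)) ∈ Submodule.span F _
    rw [hv]
    apply Submodule.smul_mem
    apply Submodule.add_mem
    · apply Submodule.add_mem
      · exact Submodule.subset_span (by simp)
      · exact Submodule.smul_mem _ _ (Submodule.subset_span (by simp))
    · exact Submodule.smul_mem _ _ (Submodule.subset_span (by simp))
  have h3 := finrank_span_finset_le_card (R := F)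
    ({(g : Matrix ι ι F).col j, Pi.single a 1, Pi.single b 1} : Finset (ι → F))
  have h5 := Submodule.finrank_mono hle
  have h6 : ({(g : Matrix ι ι F).col j, Pi.single a 1, Pi.single b 1} : Finset (ι → F)).card ≤ 3 :=
    Finset.card_le_three
  unfold Set.finrank at h3
  omega

end Cfsg.Agent.Lib.Helper90.C2
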