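import Cfsg.Agent.Lib.Helper90.C2.A2A

set_option autoImplicit false

namespace Cfsg.Agent.Lib.Helper90.C2

open Matrix Module Cfsg.Agent.Lib.Helper95 Cfsg.Agent.Lib.Helper97

variable {ι : Type} [Fintype ι] [DecidableEq ι] {F : Type*} [Field F]

private theorem a2_not_comm (hn : 5 ≤ Fintype.card ι) :
    ∃ π π' : alternatingGroup ι, π * π' ≠ π' * π := by
  obtain ⟨e⟩ : Nonempty (Fin 4 ↪ ι) := Function.Embedding.nonempty_of_card_le (by simp; omega)
  have hab : e 0 ≠ e 1 := e.injective.ne (by decide)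
  have hac : e 0 ≠ e 2 := e.injective.ne (by decide)
  have had : e 0 ≠ e 3 := e.injective.ne (by decide)
  have hbc : e 1 ≠ e 2 := e.injective.ne (by decide)
  have hbd : e 1 ≠ e 3 := e.injective.ne (by decide)
  have hcd : e 2 ≠ e 3 := e.injective.ne (by decide)
  refine ⟨⟨Equiv.swap (e 0) (e 1) * Equiv.swap (e 1) (e 2), ?_⟩,
    ⟨Equiv.swap (e 0) (e 1) * Equiv.swap (e 1) (e 3), ?_⟩, ?_⟩
  · rw [Equiv.Perm.mem_alternatingGroup]; simp [Equiv.Perm.sign_swap hab, Equiv.Perm.sign_swap hbc]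
  · rw [Equiv.Perm.mem_alternatingGroup]; simp [Equiv.Perm.sign_swap hab, Equiv.Perm.sign_swap hbd]
  · intro h
    have h1 := congrArg (fun π : alternatingGroup ι => (π : Equiv.Perm ι) (e 0)) h
    simp only [Subgroup.coe_mul, Equiv.Perm.mul_apply] at h1
    rw [Equiv.swap_apply_of_ne_of_ne hab had, Equiv.swap_apply_left, Equiv.swap_apply_left,
      Equiv.swap_apply_of_ne_of_ne hac.symm hbc.symm,
      Equiv.swap_apply_of_ne_of_ne hab hac, Equiv.swap_apply_left, Equiv.swap_apply_left,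
      Equiv.swap_apply_of_ne_of_ne had.symm hbd.symm] at h1
    exact hcd h1

theorem hasW1_of_full (hn : 5 ≤ Fintype.card ι) (X : Subgroup (GL ι F)) (hX : HasMonoSL X)
    (N : Subgroup (GL ι F)) (Φ : N →* Equiv.Perm ι) (hN : ∀ g, g ∈ N ↔ IsMono (g : Matrix ι ι F))
    (hΦ : ∀ (g : N) (j : ι), ((g : GL ι F) : Matrix ι ι F) (Φ g j) j ≠ 0)
    (alt : ∀ (Ψ : alternatingGroup ι →* Equiv.Perm ι) (j : ι), (∀ π, Ψ π j = j) → ∀ π, Ψ π = 1)
    (g : GL ι F) (hg : g ∈ X) (hgm : ¬ IsMono (g : Matrix ι ι F)) (j : ι)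
    (hfull : ∀ i, (g : Matrix ι ι F) i j ≠ 0) : HasW1 X := by
  by_contra hW
  let w : ι → Fˣ := fun i => Units.mk0 ((g : Matrix ι ι F) i j) (hfull i)
  let pmHom : Equiv.Perm ι →* GL ι F := MonoidHom.mk' pm pm_mul
  let x : alternatingGroup ι →* GL ι F :=
    (MulAut.conj (g⁻¹ * dg w)).toMonoidHom.comp (pmHom.comp (alternatingGroup ι).subtype)
  have hx : ∀ π : alternatingGroup ι,
      x π = g⁻¹ * ((dg w * pm (π : Equiv.Perm ι) * (dg w)⁻¹) * g) := by
    intro π
    simp only [x, pmHom, MonoidHom.comp_apply, MulEquiv.coe_toMonoidHom, MulAut.conj_apply,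
      Subgroup.subtype_apply, MonoidHom.mk'_apply]
    group
  have hρX : ∀ π : alternatingGroup ι, (dg w * pm (π : Equiv.Perm ι) * (dg w)⁻¹ : GL ι F) ∈ X := by
    intro π
    apply hX
    · rw [Units.val_mul, Units.val_mul]
      exact ((isMono_dg w).mul (isMono_pm _)).mul (isMono_dg w).inv
    · rw [Units.val_mul, Units.val_mul, Matrix.det_mul, Matrix.det_mul, det_pm, dg_inv, det_dg, det_dg,
        Equiv.Perm.mem_alternatingGroup.1 π.2]
      simp only [Units.val_one, Int.cast_one, mul_one, ← Finset.prod_mul_distrib]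
      simp
  have hxX : ∀ π, x π ∈ X := fun π => by
    rw [hx]; exact X.mul_mem (X.inv_mem hg) (X.mul_mem (hρX π) hg)
  -- column j
  have hcolρ : ∀ (π : alternatingGroup ι) (i : ι),
      (((dg w * pm (π : Equiv.Perm ι) * (dg w)⁻¹) * g : GL ι F) : Matrix ι ι F) i j = (g : Matrix ι ι F) i j := by
    intro π i
    rw [Units.val_mul, Matrix.mul_apply, Finset.sum_eq_single ((π : Equiv.Perm ι)⁻¹ i)]
    · rw [dg_inv, Units.val_mul, mul_dg_apply, Units.val_mul, dg_mul_apply, pm_apply]
      simp only [w, Units.val_inv_eq_inv_val, Units.val_mk0]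
      rw [mul_assoc, inv_mul_cancel₀ (hfull _), mul_one]
      simp
    · intro b _ hb
      rw [dg_inv, Units.val_mul, mul_dg_apply, Units.val_mul, dg_mul_apply, pm_apply]
      have : i ≠ (π : Equiv.Perm ι) b := by
        intro h; apply hb; rw [h]; simp
      simp [this]
    · simp
  have hcol : ∀ (π : alternatingGroup ι) (i : ι), ((x π : GL ι F) : Matrix ι ι F) i j = if i = j then 1 else 0 := by
    intro π i
    rw [hx, Units.val_mul, Matrix.mul_apply]
    simp only [hcolρ]
    exact inv_mul_apply g i j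
  have hmono : ∀ π, IsMono ((x π : GL ι F) : Matrix ι ι F) := by
    intro π
    by_contra hne
    exact hW ⟨x π, hxX π, hne, j, j, fun i hi => by rw [hcol, if_neg hi]⟩
  let Ψ : alternatingGroup ι →* Equiv.Perm ι := Φ.comp (x.codRestrict N (fun π => (hN _).2 (hmono π)))
  have hΨ : ∀ (π : alternatingGroup ι) (k : ι), ((x π : GL ι F) : Matrix ι ι F) (Ψ π k) k ≠ 0 :=
    fun π k => hΦ (x.codRestrict N (fun π => (hN _).2 (hmono π)) π) k
  have hΨj : ∀ π, Ψ π j = j := by
    intro π
    by_contra hne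
    exact hΨ π j (by rw [hcol, if_neg hne])
  have htriv := alt Ψ j hΨj
  have hdiag : ∀ π, ((x π : GL ι F) : Matrix ι ι F) = diagonal (fun i => ((x π : GL ι F) : Matrix ι ι F) i i) := by
    intro π
    ext i k
    by_cases hik : i = k
    · subst hik; simp
    · rw [diagonal_apply_ne _ hik]
      by_contra hne
      have h1 := hΨ π k
      rw [htriv π] at h1
      exact hik (IsMono.eq_of_ne_zero (hmono π) hne h1)
  have hcomm : ∀ π π', x π * x π' = x π' * x π := by
    intro π π'
    apply Units.ext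
    rw [Units.val_mul, Units.val_mul, hdiag π, hdiag π', diagonal_mul_diagonal, diagonal_mul_diagonal]
    congr 1
    funext i
    exact mul_comm _ _
  have hinj : Function.Injective x := by
    intro π π' h
    simp only [x, pmHom, MonoidHom.comp_apply, MulEquiv.coe_toMonoidHom, Subgroup.subtype_apply,
      MonoidHom.mk'_apply] at h
    exact Subtype.ext (pm_injective ((MulAut.conj (g⁻¹ * dg w)).injective h))
  obtain ⟨π, π', hne⟩ := a2_not_comm hn
  apply hne
  apply hinj
  rw [map_mul, map_mul, hcomm]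

end Cfsg.Agent.Lib.Helper90.C2
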