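import Cfsg.Agent.Lib.Helper90.C2.Basic

set_option autoImplicit false

namespace Cfsg.Agent.Lib.Helper90.C2

open Matrix Module Cfsg.Agent.Lib.Helper95 Cfsg.Agent.Lib.Helper97

variable {ι : Type} [Fintype ι] [DecidableEq ι] {F : Type*} [Field F]

/-- in a monomial matrix two non-zero entries of a column are at the same place -/
theorem IsMono.eq_of_ne_zero {A : Matrix ι ι F} (hA : IsMono A) {i i' j : ι} (h : A i j ≠ 0) (h' : A i' j ≠ 0) :
    i = i' := by
  obtain ⟨k, hk⟩ := hA j
  have h1 : i = k := by by_contra hne; exact h (hk i hne)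
  have h2 : i' = k := by by_contra hne; exact h' (hk i' hne)
  rw [h1, h2]

/-- the monomial subgroup -/
def monoGrp (ι : Type) [Fintype ι] [DecidableEq ι] (F : Type*) [Field F] : Subgroup (GL ι F) where
  carrier := {g | IsMono (g : Matrix ι ι F)}
  mul_mem' := by
    intro a b ha hb
    rw [Set.mem_setOf_eq, Units.val_mul]
    exact IsMono.mul ha hb
  one_mem' := isMono_one
  inv_mem' := fun h => IsMono.inv h

theorem exists_permHom : ∃ (N : Subgroup (GL ι F)) (Φ : N →* Equiv.Perm ι),
    (∀ g, g ∈ N ↔ IsMono (g : Matrix ι ι F)) ∧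
    ∀ (g : N) (j : ι), ((g : GL ι F) : Matrix ι ι F) (Φ g j) j ≠ 0 := by
  classical
  let f : monoGrp ι F → ι → ι := fun g j => Classical.choose (exists_col_ne_zero (g : GL ι F) j)
  have hf : ∀ (g : monoGrp ι F) (j : ι), ((g : GL ι F) : Matrix ι ι F) (f g j) j ≠ 0 :=
    fun g j => Classical.choose_spec (exists_col_ne_zero (g : GL ι F) j)
  have huniq : ∀ (g : monoGrp ι F) (i j : ι), ((g : GL ι F) : Matrix ι ι F) i j ≠ 0 → f g j = i :=
    fun g i j h => IsMono.eq_of_ne_zero g.2 (hf g j) h
  letI : MulAction (monoGrp ι F) ι :=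
    { smul := f
      one_smul := fun j => huniq 1 j j (by simp)
      mul_smul := fun g h j => by
        apply huniq
        change (((g : GL ι F) * (h : GL ι F) : GL ι F) : Matrix ι ι F) (f g (f h j)) j ≠ 0
        rw [Units.val_mul, Matrix.mul_apply, Finset.sum_eq_single (f h j)]
        · exact mul_ne_zero (hf g _) (hf h j)
        · intro b _ hb
          have : ((h : GL ι F) : Matrix ι ι F) b j = 0 := by
            by_contra hne
            exact hb (huniq h b j hne).symm
          rw [this, mul_zero]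
        · simp }
  exact ⟨monoGrp ι F, MulAction.toPermHom (monoGrp ι F) ι, fun g => Iff.rfl, fun g j => hf g j⟩

end Cfsg.Agent.Lib.Helper90.C2
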