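import Mathlib

set_option autoImplicit false

namespace Cfsg.Agent.Lib.Helper90.C2

theorem alt_hom_trivial {κ : Type*} [Fintype κ] [DecidableEq κ] (hn : 5 ≤ Fintype.card κ)
    (Ψ : alternatingGroup κ →* Equiv.Perm κ) (j : κ) (hj : ∀ π, Ψ π j = j) : ∀ π, Ψ π = 1 := by
  have hsimple : IsSimpleGroup (alternatingGroup κ) :=
    alternatingGroup.isSimpleGroup (by rw [Nat.card_eq_fintype_card]; exact hn)
  rcases hsimple.eq_bot_or_eq_top_of_normal Ψ.ker inferInstance with hk | hk
  · exfalso
    have hinj : Function.Injective Ψ := (MonoidHom.ker_eq_bot_iff Ψ).1 hk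
    have hnt : Nontrivial κ := Fintype.one_lt_card_iff_nontrivial.mp (by omega)
    -- the stabiliser of `j`
    have hstab : Nat.card (MulAction.stabilizer (Equiv.Perm κ) j) * Fintype.card κ =
        (Fintype.card κ).factorial := by
      have h1 := MulAction.index_stabilizer_of_transitive (Equiv.Perm κ) j
      have h2 := Subgroup.card_mul_index (MulAction.stabilizer (Equiv.Perm κ) j)
      rw [h1, Nat.card_eq_fintype_card (α := κ), Nat.card_eq_fintype_card (α := Equiv.Perm κ),
        Fintype.card_perm] at h2
      exact h2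
    have hle : Nat.card (alternatingGroup κ) ≤ Nat.card (MulAction.stabilizer (Equiv.Perm κ) j) := by
      apply Nat.card_le_card_of_injective
        (fun π => (⟨Ψ π, hj π⟩ : MulAction.stabilizer (Equiv.Perm κ) j))
      intro π π' h
      exact hinj (congrArg Subtype.val h)
    have halt : 2 * Nat.card (alternatingGroup κ) = (Fintype.card κ).factorial := by
      rw [Nat.card_eq_fintype_card, two_mul_card_alternatingGroup, Fintype.card_perm]
    have hpos : 0 < Nat.card (MulAction.stabilizer (Equiv.Perm κ) j) := Nat.card_pos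
    nlinarith
  · intro π
    have : π ∈ Ψ.ker := by rw [hk]; trivial
    exact this

end Cfsg.Agent.Lib.Helper90.C2
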