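import Cfsg.Agent.Lib.Helper90.C2.Basic

set_option autoImplicit false

namespace Cfsg.Agent.Lib.Helper90.C2

open Matrix Module Cfsg.Agent.Lib.Helper95 Cfsg.Agent.Lib.Helper97

variable {ι : Type} [Fintype ι] [DecidableEq ι] {F : Type*} [Field F]

private theorem a3_exists_notMem {κ : Type*} [Fintype κ] (S : Finset κ)
    (h : S.card < Fintype.card κ) : ∃ x, x ∉ S := by
  by_contra hcon
  push Not at hcon
  have : S = Finset.univ := Finset.eq_univ_iff_forall.2 hcon
  rw [this, Finset.card_univ] at h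
  exact lt_irrefl _ h

theorem false_of_one_zero [Fintype F] (hq : 5 ≤ Fintype.card F) (hn : 5 ≤ Fintype.card ι)
    (X : Subgroup (GL ι F)) (hX : HasMonoSL X)
    (h1 : ∀ x ∈ X, ¬ IsMono (x : Matrix ι ι F) → ∀ j, ∃! i, (x : Matrix ι ι F) i j = 0)
    (g : GL ι F) (hg : g ∈ X) (hgm : ¬ IsMono (g : Matrix ι ι F)) : False := by
  classical
  have hne : Nonempty ι := Fintype.card_pos_iff.1 (by omega)
  obtain ⟨l⟩ := hne
  have hgi : g⁻¹ ∈ X := X.inv_mem hg
  have hgim : ¬ IsMono ((g⁻¹ : GL ι F) : Matrix ι ι F) := by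
    intro h
    have := IsMono.inv h
    rw [inv_inv] at this
    exact hgm this
  obtain ⟨k, hk0, hku⟩ := h1 g⁻¹ hgi hgim l
  simp only at hk0 hku
  obtain ⟨a, ha⟩ := a3_exists_notMem ({k} : Finset ι) (by rw [Finset.card_singleton]; omega)
  obtain ⟨b, hb⟩ := a3_exists_notMem ({k, a} : Finset ι)
    (lt_of_le_of_lt Finset.card_le_two (by omega))
  simp only [Finset.mem_insert, Finset.mem_singleton, not_or] at ha hb
  obtain ⟨hbk, hba⟩ := hb
  obtain ⟨β, hβ⟩ : ∃ β : ι → ι → F, ∀ i s, β i s =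
      (g : Matrix ι ι F) i s * ((g⁻¹ : GL ι F) : Matrix ι ι F) s l := ⟨_, fun _ _ => rfl⟩
  have hβsum : ∀ i, ∑ s, β i s = if i = l then 1 else 0 := by
    intro i
    simp only [hβ]
    exact mul_inv_apply g i l
  have hwa : ((g⁻¹ : GL ι F) : Matrix ι ι F) a l ≠ 0 := fun h => ha (hku a h)
  have hwb : ((g⁻¹ : GL ι F) : Matrix ι ι F) b l ≠ 0 := fun h => hbk (hku b h)
  obtain ⟨ia, hia0, hiau⟩ := h1 g hg hgm a
  obtain ⟨ib, hib0, hibu⟩ := h1 g hg hgm b
  simp only at hia0 hiau hib0 hibu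
  have hβa : ∀ i, β i a = 0 ↔ i = ia := by
    intro i
    rw [hβ]
    constructor
    · intro h
      exact hiau i ((mul_eq_zero.1 h).resolve_right hwa)
    · rintro rfl
      rw [hia0, zero_mul]
  have hβb : ∀ i, β i b = 0 ↔ i = ib := by
    intro i
    rw [hβ]
    constructor
    · intro h
      exact hibu i ((mul_eq_zero.1 h).resolve_right hwb)
    · rintro rfl
      rw [hib0, zero_mul]
  obtain ⟨col, hcol⟩ : ∃ col : F → F → ι → F, ∀ γ γ' i, col γ γ' i =
      (if i = l then 1 else 0) + γ * β i a + γ' * β i b := ⟨_, fun _ _ _ => rfl⟩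
  -- the column of the conjugated torus element
  have hentry : ∀ (u u' : Fˣ) (i : ι),
      ((g * ((d1 a u * d1 k u⁻¹) * (d1 b u' * d1 k u'⁻¹)) * g⁻¹ : GL ι F) : Matrix ι ι F) i l =
        col ((u : F) - 1) ((u' : F) - 1) i := by
    intro u u' i
    rw [Units.val_mul, Matrix.mul_apply, hcol, ← hβsum]
    have hterm : ∀ s, ((g * ((d1 a u * d1 k u⁻¹) * (d1 b u' * d1 k u'⁻¹)) : GL ι F) :
        Matrix ι ι F) i s * ((g⁻¹ : GL ι F) : Matrix ι ι F) s l =
        β i s + (if s = a then ((u : F) - 1) * β i a else 0) +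
          (if s = b then ((u' : F) - 1) * β i b else 0) := by
      intro s
      have e1 : (g * ((d1 a u * d1 k u⁻¹) * (d1 b u' * d1 k u'⁻¹)) : GL ι F) =
          g * d1 a u * d1 k u⁻¹ * d1 b u' * d1 k u'⁻¹ := by group
      rw [e1, Units.val_mul, Units.val_mul, Units.val_mul, Units.val_mul]
      unfold d1
      rw [mul_dg_apply, mul_dg_apply, mul_dg_apply, mul_dg_apply]
      by_cases hsk : s = k
      · subst hsk
        rw [hβ, hk0, if_neg (Ne.symm ha), if_neg (Ne.symm hbk)]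
        ring
      · by_cases hsa : s = a
        · subst hsa
          rw [hβ, if_pos rfl, if_neg (Ne.symm hba), Pi.mulSingle_eq_same,
            Pi.mulSingle_eq_of_ne hsk, Pi.mulSingle_eq_of_ne (Ne.symm hba),
            Pi.mulSingle_eq_of_ne hsk]
          simp only [Units.val_one]
          ring
        · by_cases hsb : s = b
          · subst hsb
            rw [hβ, if_neg hsa, if_pos rfl, Pi.mulSingle_eq_same,
              Pi.mulSingle_eq_of_ne hsk, Pi.mulSingle_eq_of_ne hsa,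
              Pi.mulSingle_eq_of_ne hsk]
            simp only [Units.val_one]
            ring
          · rw [hβ, if_neg hsa, if_neg hsb, Pi.mulSingle_eq_of_ne hsk, Pi.mulSingle_eq_of_ne hsa,
              Pi.mulSingle_eq_of_ne hsk, Pi.mulSingle_eq_of_ne hsb]
            simp only [Units.val_one]
            ring
    simp only [hterm, Finset.sum_add_distrib, Finset.sum_ite_eq', Finset.mem_univ, if_true]
  have hdich : ∀ γ γ' : F, 1 + γ ≠ 0 → 1 + γ' ≠ 0 →
      (∃ i0, ∀ i, i ≠ i0 → col γ γ' i = 0) ∨ (∃! i, col γ γ' i = 0) := by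
    intro γ γ' hγ hγ'
    have hx : (g * ((d1 a (Units.mk0 _ hγ) * d1 k (Units.mk0 _ hγ)⁻¹) *
        (d1 b (Units.mk0 _ hγ') * d1 k (Units.mk0 _ hγ')⁻¹)) * g⁻¹ : GL ι F) ∈ X :=
      X.mul_mem (X.mul_mem hg (X.mul_mem (d2_mem hX ha _) (d2_mem hX hbk _))) hgi
    have he := hentry (Units.mk0 _ hγ) (Units.mk0 _ hγ')
    simp only [Units.val_mk0, add_sub_cancel_left] at he
    by_cases hm : IsMono ((g * ((d1 a (Units.mk0 _ hγ) * d1 k (Units.mk0 _ hγ)⁻¹) *
        (d1 b (Units.mk0 _ hγ') * d1 k (Units.mk0 _ hγ')⁻¹)) * g⁻¹ : GL ι F) : Matrix ι ι F)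
    · left
      obtain ⟨i0, hi0⟩ := hm l
      exact ⟨i0, fun i hi => by rw [← he]; exact hi0 i hi⟩
    · right
      have := h1 _ hx hm l
      simpa only [he] using this
  have hnozero : ∀ γ γ' : F, 1 + γ ≠ 0 → 1 + γ' ≠ 0 → (∀ i, col γ γ' i ≠ 0) → False := by
    intro γ γ' hγ hγ' hall
    rcases hdich γ γ' hγ hγ' with ⟨i0, hi0⟩ | ⟨i, hi, -⟩
    · obtain ⟨i, hi⟩ := a3_exists_notMem ({i0} : Finset ι) (by rw [Finset.card_singleton]; omega)
      rw [Finset.mem_singleton] at hi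
      exact hall i (hi0 i hi)
    · exact hall i hi
  have htwo : ∀ γ γ' : F, 1 + γ ≠ 0 → 1 + γ' ≠ 0 → ∀ p q, p ≠ q → col γ γ' p = 0 →
      col γ γ' q = 0 → ∃ i0, ∀ i, i ≠ i0 → col γ γ' i = 0 := by
    intro γ γ' hγ hγ' p q hpq hp hq'
    rcases hdich γ γ' hγ hγ' with h | ⟨i, -, hi⟩
    · exact h
    · exact absurd ((hi p hp).trans (hi q hq').symm) hpq
  have hfour : ∀ γ γ' : F, 1 + γ ≠ 0 → 1 + γ' ≠ 0 → ∀ p q r s, p ≠ q → r ≠ s → col γ γ' p = 0 →
      col γ γ' q = 0 → col γ γ' r ≠ 0 → col γ γ' s ≠ 0 → False := by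
    intro γ γ' hγ hγ' p q r s hpq hrs hp hq' hr hs
    obtain ⟨i0, hi0⟩ := htwo γ γ' hγ hγ' p q hpq hp hq'
    by_cases hri : r = i0
    · exact hs (hi0 s (fun h => hrs (hri.trans h.symm)))
    · exact hr (hi0 r hri)
  -- Step 1, for a generic column
  have hstep1 : ∀ (c ic : ι) (colc : F → ι → F), (∀ i, β i c = 0 ↔ i = ic) →
      (∀ γ i, colc γ i = (if i = l then 1 else 0) + γ * β i c) →
      (∀ γ : F, 1 + γ ≠ 0 → (∀ i, colc γ i ≠ 0) → False) →
      (∀ γ : F, 1 + γ ≠ 0 → ∀ p q r s, p ≠ q → r ≠ s → colc γ p = 0 →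
        colc γ q = 0 → colc γ r ≠ 0 → colc γ s ≠ 0 → False) → ic ≠ l ∧ β l c = 1 := by
    intro c ic colc hβc hcc hnz hfr
    have hicl : ic ≠ l := by
      intro hicl
      obtain ⟨γ, hγ⟩ := a3_exists_notMem ({0, -1} : Finset F)
        (lt_of_le_of_lt Finset.card_le_two (by omega))
      simp only [Finset.mem_insert, Finset.mem_singleton, not_or] at hγ
      apply hnz γ (fun h => hγ.2 (by linear_combination h))
      intro i
      rw [hcc]
      by_cases hil : i = l
      · rw [if_pos hil, (hβc i).2 (hil.trans hicl.symm), mul_zero, add_zero]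
        exact one_ne_zero
      · rw [if_neg hil, zero_add]
        exact mul_ne_zero hγ.1 (fun h => hil (((hβc i).1 h).trans hicl))
    refine ⟨hicl, ?_⟩
    by_contra hne1
    have hβl : β l c ≠ 0 := fun h => hicl ((hβc l).1 h).symm
    obtain ⟨r, hr⟩ := a3_exists_notMem ({l, ic} : Finset ι)
      (lt_of_le_of_lt Finset.card_le_two (by omega))
    obtain ⟨s, hs⟩ := a3_exists_notMem ({l, ic, r} : Finset ι)
      (lt_of_le_of_lt Finset.card_le_three (by omega))
    simp only [Finset.mem_insert, Finset.mem_singleton, not_or] at hr hs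
    have hγ0 : -(β l c)⁻¹ ≠ 0 := neg_ne_zero.2 (inv_ne_zero hβl)
    apply hfr (-(β l c)⁻¹) (by
      intro h
      apply hne1
      field_simp at h
      linear_combination h) l ic r s hicl.symm (Ne.symm hs.2.2)
    · rw [hcc, if_pos rfl]
      field_simp
      ring
    · rw [hcc, if_neg hicl, (hβc ic).2 rfl]
      ring
    · rw [hcc, if_neg hr.1, zero_add]
      exact mul_ne_zero hγ0 (fun h => hr.2 ((hβc r).1 h))
    · rw [hcc, if_neg hs.1, zero_add]
      exact mul_ne_zero hγ0 (fun h => hs.2.1 ((hβc s).1 h))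
  obtain ⟨hial, hβla⟩ := hstep1 a ia (fun γ i => col γ 0 i) hβa
    (fun γ i => by simp only [hcol]; ring)
    (fun γ hγ => hnozero γ 0 hγ (by simp))
    (fun γ hγ => hfour γ 0 hγ (by simp))
  obtain ⟨hibl, hβlb⟩ := hstep1 b ib (fun γ i => col 0 γ i) hβb
    (fun γ i => by simp only [hcol]; ring)
    (fun γ hγ => hnozero 0 γ (by simp) hγ)
    (fun γ hγ => hfour 0 γ (by simp) hγ)
  have hcl : ∀ γ γ', col γ γ' l = 1 + γ + γ' := by
    intro γ γ'
    rw [hcol, if_pos rfl, hβla, hβlb]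
    ring
  have hco : ∀ γ γ' i, i ≠ l → col γ γ' i = γ * β i a + γ' * β i b := by
    intro γ γ' i hi
    rw [hcol, if_neg hi, zero_add]
  by_cases hiab : ia = ib
  · -- equal zeros
    obtain ⟨p₁, hp₁⟩ := a3_exists_notMem ({l, ia} : Finset ι)
      (lt_of_le_of_lt Finset.card_le_two (by omega))
    obtain ⟨p₂, hp₂⟩ := a3_exists_notMem ({l, ia, p₁} : Finset ι)
      (lt_of_le_of_lt Finset.card_le_three (by omega))
    obtain ⟨p₃, hp₃⟩ := a3_exists_notMem ({l, ia, p₁, p₂} : Finset ι)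
      (lt_of_le_of_lt Finset.card_le_four (by omega))
    obtain ⟨γ₁, hγ₁⟩ := a3_exists_notMem ({0, -1} : Finset F)
      (lt_of_le_of_lt Finset.card_le_two (by omega))
    obtain ⟨γ₂, hγ₂⟩ := a3_exists_notMem ({0, -1, γ₁} : Finset F)
      (lt_of_le_of_lt Finset.card_le_three (by omega))
    simp only [Finset.mem_insert, Finset.mem_singleton, not_or] at hp₁ hp₂ hp₃ hγ₁ hγ₂
    have hmono : ∀ γ : F, γ ≠ 0 → γ ≠ -1 → ∃ i0, ∀ i, i ≠ i0 → col γ (-1 - γ) i = 0 := by
      intro γ h0 h1'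
      apply htwo γ (-1 - γ) (fun h => h1' (by linear_combination h))
        (fun h => h0 (by linear_combination -h)) l ia hial.symm
      · rw [hcl]; ring
      · rw [hco _ _ _ hial, (hβa ia).2 rfl, (hβb ia).2 hiab]; ring
    obtain ⟨j₁, hj₁⟩ := hmono γ₁ hγ₁.1 hγ₁.2
    obtain ⟨j₂, hj₂⟩ := hmono γ₂ hγ₂.1 hγ₂.2.1
    have hfin : ∀ p, p ≠ l → p ≠ ia → p ≠ j₁ → p ≠ j₂ → False := by
      intro p hpl hpa hpj₁ hpj₂
      have e1 := hj₁ p hpj₁
      have e2 := hj₂ p hpj₂
      rw [hco _ _ _ hpl] at e1 e2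
      have e3 : (γ₁ - γ₂) * (β p a - β p b) = 0 := by linear_combination e1 - e2
      have e4 : β p a = β p b := by
        rcases mul_eq_zero.1 e3 with h | h
        · exact absurd (sub_eq_zero.1 h).symm hγ₂.2.2
        · exact sub_eq_zero.1 h
      rw [e4] at e1
      have e5 : β p b = 0 := by linear_combination -e1
      exact hpa (((hβb p).1 e5).trans hiab.symm)
    by_cases c1 : p₁ = j₁ ∨ p₁ = j₂
    · by_cases c2 : p₂ = j₁ ∨ p₂ = j₂
      · apply hfin p₃ hp₃.1 hp₃.2.1
        · rintro rfl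
          rcases c1 with c1 | c1
          · exact hp₃.2.2.1 c1.symm
          · rcases c2 with c2 | c2
            · exact hp₃.2.2.2 c2.symm
            · exact hp₂.2.2 (c2.trans c1.symm)
        · rintro rfl
          rcases c1 with c1 | c1
          · rcases c2 with c2 | c2
            · exact hp₂.2.2 (c2.trans c1.symm)
            · exact hp₃.2.2.2 c2.symm
          · exact hp₃.2.2.1 c1.symm
      · rw [not_or] at c2
        exact hfin p₂ hp₂.1 hp₂.2.1 c2.1 c2.2
    · rw [not_or] at c1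
      exact hfin p₁ hp₁.1 hp₁.2 c1.1 c1.2
  · -- different zeros
    have hβiab : β ia b ≠ 0 := fun h => hiab ((hβb ia).1 h)
    have hβiba : β ib a ≠ 0 := fun h => hiab ((hβa ib).1 h).symm
    have heq : ∀ i, i ≠ l → i ≠ ia → i ≠ ib → β i a = β i b := by
      intro i hil hiia hiib
      by_contra hne
      have hd : β i a - β i b ≠ 0 := sub_ne_zero.2 hne
      have hbi : β i b ≠ 0 := fun h => hiib ((hβb i).1 h)
      have hai : β i a ≠ 0 := fun h => hiia ((hβa i).1 h)
      obtain ⟨γ, hγ⟩ : ∃ γ, γ = β i b / (β i a - β i b) := ⟨_, rfl⟩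
      have hγd : γ * (β i a - β i b) = β i b := by
        rw [hγ]; field_simp
      have hγ0 : γ ≠ 0 := by
        rw [hγ]; exact div_ne_zero hbi hd
      have hγ1 : 1 + γ ≠ 0 := by
        intro h
        apply hai
        have : (1 + γ) * (β i a - β i b) = β i a := by linear_combination hγd
        rw [← this, h, zero_mul]
      apply hfour γ (-1 - γ) hγ1 (fun h => hγ0 (by linear_combination -h)) l i ia ib
        (Ne.symm hil) hiab
      · rw [hcl]; ring
      · rw [hco _ _ _ hil]; linear_combination hγd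
      · rw [hco _ _ _ hial, (hβa ia).2 rfl, mul_zero, zero_add]
        exact mul_ne_zero (fun h => hγ1 (by linear_combination -h)) hβiab
      · rw [hco _ _ _ hibl, (hβb ib).2 rfl, mul_zero, add_zero]
        exact mul_ne_zero hγ0 hβiba
    obtain ⟨γ, hγ⟩ := a3_exists_notMem ({0, -1} : Finset F)
      (lt_of_le_of_lt Finset.card_le_two (by omega))
    obtain ⟨γ', hγ'⟩ := a3_exists_notMem ({0, -1, -γ, -1 - γ} : Finset F)
      (lt_of_le_of_lt Finset.card_le_four (by omega))
    simp only [Finset.mem_insert, Finset.mem_singleton, not_or] at hγ hγ'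
    apply hnozero γ γ' (fun h => hγ.2 (by linear_combination h))
      (fun h => hγ'.2.1 (by linear_combination h))
    intro i
    by_cases hil : i = l
    · rw [hil, hcl]
      intro h
      exact hγ'.2.2.2 (by linear_combination h)
    · rw [hco _ _ _ hil]
      by_cases hiia : i = ia
      · rw [hiia, (hβa ia).2 rfl, mul_zero, zero_add]
        exact mul_ne_zero hγ'.1 hβiab
      · by_cases hiib : i = ib
        · rw [hiib, (hβb ib).2 rfl, mul_zero, add_zero]
          exact mul_ne_zero hγ.1 hβiba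
        · rw [heq i hil hiia hiib, ← add_mul]
          exact mul_ne_zero (fun h => hγ'.2.2.1 (by linear_combination h))
            (fun h => hiib ((hβb i).1 h))

end Cfsg.Agent.Lib.Helper90.C2
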