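import Cfsg.Agent.Lib.Helper90.C2.Fun

set_option autoImplicit false

namespace Cfsg.Agent.Lib.Helper90.C2

open Matrix Module Cfsg.Agent.Lib.Helper95 Cfsg.Agent.Lib.Helper97

variable {K V : Type*} [Field K] [AddCommGroup V] [Module K V] {t m : ℕ} {D : Fin t → Submodule K V}

/-- an automorphism mapping, together with its inverse, every block into itself stabilises the decomposition -/
theorem stabD_of_le (e : V ≃ₗ[K] V) (h1 : ∀ k, ∀ x ∈ D k, e x ∈ D k) (h2 : ∀ k, ∀ x ∈ D k, e.symm x ∈ D k) :
    StabD D e := by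
  refine ⟨1, fun k => ?_⟩
  apply le_antisymm
  · rintro _ ⟨x, hx, rfl⟩
    exact h1 k x hx
  · intro x hx
    exact ⟨e.symm x, h2 k x hx, by simp⟩

theorem hasBlock_of_hasH [FiniteDimensional K V] (M : Subgroup (V ≃ₗ[K] V)) (hM : HasH D M) : HasBlock D M := by
  intro i v hv φ hφ h0
  refine ⟨h0, hM _ ?_ ?_⟩
  · change LinearEquiv.det _ = 1
    exact LinearEquiv.transvection.det_eq_one h0
  · apply stabD_of_le
    · intro k x hx
      rw [LinearEquiv.transvection.apply]
      by_cases hk : k = i
      · subst hk; exact (D k).add_mem hx ((D k).smul_mem _ hv)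
      · rw [hφ k hk x hx, zero_smul, add_zero]; exact hx
    · intro k x hx
      rw [LinearEquiv.transvection.symm_eq h0 (by simp [h0]), LinearEquiv.transvection.apply]
      by_cases hk : k = i
      · subst hk; exact (D k).add_mem hx ((D k).smul_mem _ ((D k).neg_mem hv))
      · rw [hφ k hk x hx, zero_smul, add_zero]; exact hx

end Cfsg.Agent.Lib.Helper90.C2
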