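import Cfsg.Agent.Lib.Helper90.C2.Fun

set_option autoImplicit false

namespace Cfsg.Agent.Lib.Helper90.C2

open Matrix Module Cfsg.Agent.Lib.Helper95 Cfsg.Agent.Lib.Helper97

variable {K V : Type*} [Field K] [AddCommGroup V] [Module K V] {t m : ℕ} {D : Fin t → Submodule K V}

theorem exists_ne_zero_mem [FiniteDimensional K V] (hD : IsDec m D) (hm : 1 ≤ m) (i : Fin t) :
    ∃ x ∈ D i, x ≠ 0 := by
  have h2 : D i ≠ ⊥ := by
    intro h
    have := hD.finrank_eq i
    rw [h, finrank_bot] at this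
    omega
  exact Submodule.exists_mem_ne_zero_of_ne_bot h2

theorem exists_not_stabD [FiniteDimensional K V] (hD : IsDec m D) (hm : 1 ≤ m) (π : Proj D) :
    ∃ e ∈ slGrp K V, ¬ StabD D e := by
  have ht := hD.two_le
  let i0 : Fin t := ⟨0, by omega⟩
  let i1 : Fin t := ⟨1, by omega⟩
  have h01 : i0 ≠ i1 := by simp [i0, i1, Fin.ext_iff]
  obtain ⟨v, hv, hv0⟩ := exists_ne_zero_mem hD hm i0
  obtain ⟨x, hx, hx0⟩ := exists_ne_zero_mem hD hm i1
  obtain ⟨φ, h1, _, h3⟩ := exists_dl_sep π i1 0 x (Submodule.zero_mem _) hx (by simpa using hx0)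
  have hφv : φ v = 0 := h1 i0 h01 v hv
  refine ⟨LinearEquiv.transvection hφv, LinearEquiv.transvection.det_eq_one hφv, ?_⟩
  rintro ⟨σ, hσ⟩
  have hmem : x + v ∈ D (σ i1) := by
    rw [← hσ i1]
    refine ⟨x, hx, ?_⟩
    simp [LinearMap.transvection.apply, h3]
  have e0 : σ i1 = i0 := by
    by_contra hne
    have := π.other i0 (σ i1) hne _ hmem
    rw [map_add, π.other i0 i1 (Ne.symm h01) x hx, π.self i0 v hv, zero_add] at this
    exact hv0 this
  have e1 : σ i1 = i1 := by
    by_contra hne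
    have := π.other i1 (σ i1) hne _ hmem
    rw [map_add, π.other i1 i0 h01 v hv, π.self i1 x hx, add_zero] at this
    exact hx0 this
  exact h01 (e0.symm.trans e1)

end Cfsg.Agent.Lib.Helper90.C2
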