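import Cfsg.Agent.Lib.Helper90.C2.Fun
import Cfsg.Agent.Lib.Helper90.C2.PROP

set_option autoImplicit false

namespace Cfsg.Agent.Lib.Helper90.C2

open Matrix Module Cfsg.Agent.Lib.Helper95 Cfsg.Agent.Lib.Helper97

variable {K V : Type*} [Field K] [AddCommGroup V] [Module K V] {t m : ℕ} {D : Fin t → Submodule K V}

theorem exists_nonBlock [FiniteDimensional K V] (hD : IsDec m D) (hm : 2 ≤ m) (π : Proj D)
    (M : Subgroup (V ≃ₗ[K] V)) (hB : HasBlock D M) (g : V ≃ₗ[K] V) (hg : g ∈ M) (hgs : ¬ StabD D g) :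
    ∃ (u : V) (ψ : Dual K V), TX M u ψ ∧ NonBlock D u ψ := by
  by_contra hcon
  push Not at hcon
  apply hgs
  -- every nonzero vector of a block is mapped into a block
  have hstar : ∀ i, ∀ v ∈ D i, v ≠ 0 → ∃ j, g v ∈ D j := by
    intro i v hv hv0
    obtain ⟨φ, hφ, hφv, hφ0⟩ := exists_dl_kill hD hm π i v hv
    have h1 := (hB i v hv φ hφ hφv).conj hg
    have h2 := hcon _ _ h1
    unfold NonBlock at h2
    by_contra hno
    apply h2
    refine ⟨?_, ?_, ?_⟩
    · intro h
      exact hv0 (g.map_eq_zero_iff.1 h)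
    · intro h
      apply hφ0
      ext x
      have := congrArg (fun f : Dual K V => f (g x)) h
      simpa using this
    · rintro ⟨j, hj, -⟩
      exact hno ⟨j, hj⟩
  have hblock : ∀ i, ∃ j, ∀ v ∈ D i, g v ∈ D j := by
    intro i
    obtain ⟨v₀, hv₀, hv₀0⟩ := exists_ne_zero_mem hD (by omega) i
    obtain ⟨j₀, hj₀⟩ := hstar i v₀ hv₀ hv₀0
    refine ⟨j₀, fun v hv => ?_⟩
    by_cases hv0 : v = 0
    · rw [hv0, map_zero]; exact (D j₀).zero_mem
    obtain ⟨j, hj⟩ := hstar i v hv hv0
    by_cases hjj : j = j₀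
    · rw [← hjj]; exact hj
    by_cases hs : v + v₀ = 0
    · have : v = -v₀ := eq_neg_of_add_eq_zero_left hs
      rw [this, map_neg]
      exact (D j₀).neg_mem hj₀
    obtain ⟨k, hk⟩ := hstar i (v + v₀) ((D i).add_mem hv hv₀) hs
    rw [map_add] at hk
    exfalso
    have hkj : k = j := by
      by_contra hne
      have h1 := π.other j k hne _ hk
      rw [map_add, π.self j _ hj, π.other j j₀ (Ne.symm hjj) _ hj₀, add_zero] at h1
      exact hv0 (g.map_eq_zero_iff.1 h1)
    have hkj₀ : k = j₀ := by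
      by_contra hne
      have h1 := π.other j₀ k hne _ hk
      rw [map_add, π.self j₀ _ hj₀, π.other j₀ j hjj _ hj, zero_add] at h1
      exact hv₀0 (g.map_eq_zero_iff.1 h1)
    exact hjj (hkj.symm.trans hkj₀)
  choose σ hσ using hblock
  have hmap : ∀ i, (D i).map (g : V →ₗ[K] V) = D (σ i) := by
    intro i
    apply Submodule.eq_of_le_of_finrank_eq
    · rintro _ ⟨v, hv, rfl⟩
      exact hσ i v hv
    · rw [hD.finrank_eq, LinearEquiv.finrank_map_eq, hD.finrank_eq]
  have hinj : Function.Injective σ := by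
    intro i i' hii
    by_contra hne
    have h1 : (D i).map (g : V →ₗ[K] V) = (D i').map (g : V →ₗ[K] V) := by
      rw [hmap, hmap, hii]
    have h2 : D i = D i' := Submodule.map_injective_of_injective g.injective h1
    have h3 : Disjoint (D i) (D i') := hD.indep.pairwiseDisjoint hne
    rw [← h2, disjoint_self] at h3
    obtain ⟨v₀, hv₀, hv₀0⟩ := exists_ne_zero_mem hD (by omega) i
    rw [h3] at hv₀
    exact hv₀0 ((Submodule.mem_bot K).1 hv₀)
  exact ⟨Equiv.ofBijective σ (Finite.injective_iff_bijective.1 hinj), hmap⟩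

end Cfsg.Agent.Lib.Helper90.C2
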