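import Cfsg.Agent.Lib.Helper90.C2.B2A

set_option autoImplicit false

namespace Cfsg.Agent.Lib.Helper90.C2

open Matrix Module Cfsg.Agent.Lib.Helper95 Cfsg.Agent.Lib.Helper97

variable {K V : Type*} [Field K] [AddCommGroup V] [Module K V] {t m : ℕ} {D : Fin t → Submodule K V}

/-- a non-block pair has a non-zero component of `u` and a non-zero component of `ψ` in different blocks -/
theorem exists_pair_of_nonBlock (π : Proj D) {u : V} {ψ : Dual K V} (hnb : NonBlock D u ψ) :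
    ∃ i j : Fin t, i ≠ j ∧ π.P i u ≠ 0 ∧ ∃ x ∈ D j, ψ x ≠ 0 := by
  obtain ⟨hu, hψ, hn⟩ := hnb
  by_contra hc
  push Not at hc
  -- some component of u is non-zero
  obtain ⟨i0, hi0⟩ : ∃ i, π.P i u ≠ 0 := by
    by_contra h
    push Not at h
    apply hu
    rw [← π.sum u]
    exact Finset.sum_eq_zero (fun i _ => h i)
  have hψ0 : Dl D i0 ψ := fun k hk x hx => hc i0 k (Ne.symm hk) hi0 x hx
  -- ψ is non-zero on D i0
  obtain ⟨x, hx, hψx⟩ : ∃ x ∈ D i0, ψ x ≠ 0 := by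
    by_contra h
    push Not at h
    apply hψ
    ext y
    rw [dl_apply π hψ0 y, h _ (π.mem i0 y)]
    simp
  apply hn
  refine ⟨i0, ?_, hψ0⟩
  have : u = π.P i0 u := by
    conv_lhs => rw [← π.sum u]
    rw [Finset.sum_eq_single i0]
    · intro b _ hb
      by_contra hne
      exact hψx (hc b i0 hb hne x hx)
    · simp
  rw [this]
  exact π.mem i0 u

theorem offDiag_of_nonBlock_three [FiniteDimensional K V] (hD : IsDec m D) (hm : 3 ≤ m) (π : Proj D)
    (M : Subgroup (V ≃ₗ[K] V)) (hB : HasBlock D M)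
    (ctr : ∀ {w : V} {ψ : Dual K V}, TX M w ψ → ∀ i j : Fin t, i ≠ j → w ∈ D i → w ≠ 0 →
      ∀ x ∈ D j, ψ x ≠ 0 → OffDiag D M)
    {u : V} {ψ : Dual K V} (h : TX M u ψ) (hnb : NonBlock D u ψ) : OffDiag D M := by
  obtain ⟨i, j, hij, hu, x, hx, hψx⟩ := exists_pair_of_nonBlock π hnb
  obtain ⟨w, hw, hψw, hwu⟩ := exists_ker_not_mem_span hD hm i ψ (π.P i u)
  have hw0 : w ≠ 0 := by
    rintro rfl
    exact hwu (Submodule.zero_mem _)
  obtain ⟨χ, h1, h2, h3⟩ := exists_dl_sep π i w (π.P i u) hw (π.mem i u) (not_mem_span_symm hu hwu)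
  have hb : TX M w χ := hB i w hw χ h1 h2
  have hc : TX M w (χ u • ψ) := TX.comm hb h hψw
  rw [dl_apply π h1 u, h3, one_smul] at hc
  exact ctr hc i j hij hw hw0 x hx hψx

end Cfsg.Agent.Lib.Helper90.C2
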