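import Cfsg.Agent.Lib.Helper90.C2.Fun

set_option autoImplicit false

namespace Cfsg.Agent.Lib.Helper90.C2

open Matrix Module Cfsg.Agent.Lib.Helper95 Cfsg.Agent.Lib.Helper97

variable {K V : Type*} [Field K] [AddCommGroup V] [Module K V] {t m : ℕ} {D : Fin t → Submodule K V}

theorem dl_smul {i : Fin t} {χ : Dual K V} (h : Dl D i χ) (c : K) : Dl D i (c • χ) :=
  fun k hk x hx => by simp [h k hk x hx]

theorem not_mem_span_symm {w y : V} (hy : y ≠ 0) (h : w ∉ Submodule.span K {y}) :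
    y ∉ Submodule.span K {w} := by
  intro hc
  obtain ⟨c, hc⟩ := Submodule.mem_span_singleton.1 hc
  have hc0 : c ≠ 0 := by
    rintro rfl
    exact hy (by simpa using hc.symm)
  apply h
  rw [Submodule.mem_span_singleton]
  exact ⟨c⁻¹, by rw [← hc, smul_smul, inv_mul_cancel₀ hc0, one_smul]⟩

theorem offDiag_of_center [FiniteDimensional K V] (hD : IsDec m D) (hm : 2 ≤ m) (π : Proj D)
    (M : Subgroup (V ≃ₗ[K] V)) (hB : HasBlock D M) {w : V} {ψ : Dual K V} (h : TX M w ψ)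
    (i j : Fin t) (hij : i ≠ j) (hw : w ∈ D i) (hw0 : w ≠ 0) (x : V) (hx : x ∈ D j) (hψx : ψ x ≠ 0) :
    OffDiag D M := by
  obtain ⟨χ, h1, h2, h3⟩ := exists_dl_kill hD hm π j x hx
  have hb : TX M x χ := hB j x hx χ h1 h2
  have hc : TX M w (ψ x • χ) := TX.comm h hb (h1 i hij w hw)
  exact ⟨i, j, hij, w, hw, hw0, ψ x • χ, dl_smul h1 _, smul_ne_zero hψx h3, hc⟩

theorem offDiag_of_axis [FiniteDimensional K V] (hD : IsDec m D) (hm : 2 ≤ m) (π : Proj D)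
    (M : Subgroup (V ≃ₗ[K] V)) (hB : HasBlock D M) {u : V} {χ : Dual K V} (h : TX M u χ)
    (i j : Fin t) (hij : i ≠ j) (hχ : Dl D j χ) (hχ0 : χ ≠ 0) (hu : π.P i u ≠ 0) :
    OffDiag D M := by
  obtain ⟨w, hw, hwu⟩ := exists_not_mem_span hD hm i (π.P i u)
  have hw0 : w ≠ 0 := by
    rintro rfl
    exact hwu (Submodule.zero_mem _)
  obtain ⟨χ', h1, h2, h3⟩ := exists_dl_sep π i w (π.P i u) hw (π.mem i u) (not_mem_span_symm hu hwu)
  have hb : TX M w χ' := hB i w hw χ' h1 h2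
  have hc : TX M w (χ' u • χ) := TX.comm hb h (hχ i hij w hw)
  rw [dl_apply π h1 u, h3, one_smul] at hc
  exact ⟨i, j, hij, w, hw, hw0, χ, hχ, hχ0, hc⟩

end Cfsg.Agent.Lib.Helper90.C2
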