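import Cfsg.Agent.Lib.Helper90.C2.Fun
import Cfsg.Agent.Lib.Helper90.C2.B2A
import Cfsg.Agent.Lib.Helper90.C2.B23
import Cfsg.Agent.Lib.Helper90.C2.PROP

set_option autoImplicit false

namespace Cfsg.Agent.Lib.Helper90.C2

open Matrix Module Cfsg.Agent.Lib.Helper95 Cfsg.Agent.Lib.Helper97

variable {K V : Type*} [Field K] [AddCommGroup V] [Module K V] {t m : ℕ} {D : Fin t → Submodule K V}

theorem b22_exists_dual_one [FiniteDimensional K V] (π : Proj D) (i : Fin t) (x : V) (hx : x ∈ D i)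
    (hx0 : x ≠ 0) : ∃ χ : Dual K V, Dl D i χ ∧ χ x = 1 := by
  obtain ⟨χ, h1, -, h3⟩ := exists_dl_sep π i 0 x (D i).zero_mem hx (by
    intro h
    rw [Submodule.span_zero_singleton, Submodule.mem_bot] at h
    exact hx0 h)
  exact ⟨χ, h1, h3⟩

theorem b22_exists_third {α : Type*} [Fintype α] [DecidableEq α] (h : 3 ≤ Fintype.card α) (a b : α) :
    ∃ c, c ≠ a ∧ c ≠ b := by
  have h1 : ({a, b} : Finset α).card < (Finset.univ : Finset α).card := by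
    rw [Finset.card_univ]
    exact lt_of_le_of_lt Finset.card_le_two (by omega)
  obtain ⟨c, -, hc⟩ := Finset.exists_mem_notMem_of_card_lt_card h1
  simp only [Finset.mem_insert, Finset.mem_singleton, not_or] at hc
  exact ⟨c, hc.1, hc.2⟩

theorem b22_X1 [FiniteDimensional K V] (hD : IsDec 2 D) (π : Proj D)
    (M : Subgroup (V ≃ₗ[K] V)) (hB : HasBlock D M)
    (ctr : ∀ {w : V} {ψ : Dual K V}, TX M w ψ → ∀ i j : Fin t, i ≠ j → w ∈ D i → w ≠ 0 →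
      ∀ x ∈ D j, ψ x ≠ 0 → OffDiag D M)
    {u : V} {ψ : Dual K V} (h : TX M u ψ) (i j : Fin t) (hij : i ≠ j) (hPu : π.P i u ≠ 0)
    (x : V) (hx : x ∈ D j) (hψx : ψ x ≠ 0)
    (hc : (∀ y ∈ D i, ψ y = 0) ∨ ψ (π.P i u) ≠ 0) : OffDiag D M := by
  obtain ⟨w, hw, hw0, hψw, hn⟩ : ∃ w ∈ D i, w ≠ 0 ∧ ψ w = 0 ∧ π.P i u ∉ Submodule.span K {w} := by
    rcases hc with hc | hc
    · obtain ⟨w, hw, hwn⟩ := exists_not_mem_span hD le_rfl i (π.P i u)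
      refine ⟨w, hw, ?_, hc w hw, not_mem_span_symm hPu hwn⟩
      rintro rfl
      exact hwn (Submodule.zero_mem _)
    · obtain ⟨w, hw, hw0, hψw⟩ := exists_ker_ne_zero hD le_rfl i ψ
      refine ⟨w, hw, hw0, hψw, ?_⟩
      intro hmem
      obtain ⟨c, hcw⟩ := Submodule.mem_span_singleton.1 hmem
      apply hc
      rw [← hcw, map_smul, hψw, smul_zero]
  obtain ⟨χ, hχ, hχw, hχu⟩ := exists_dl_sep π i w (π.P i u) hw (π.mem i u) hn
  have hχu' : χ u = 1 := by rw [dl_apply π hχ u, hχu]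
  have h1 : TX M w (χ u • ψ) := (hB i w hw χ hχ hχw).comm h hψw
  rw [hχu', one_smul] at h1
  exact ctr h1 i j hij hw hw0 x hx hψx

theorem b22_X2 [FiniteDimensional K V] (hD : IsDec 2 D) (π : Proj D)
    (M : Subgroup (V ≃ₗ[K] V)) (hB : HasBlock D M)
    (axis : ∀ {u : V} {χ : Dual K V}, TX M u χ → ∀ i j : Fin t, i ≠ j → Dl D j χ → χ ≠ 0 →
      π.P i u ≠ 0 → OffDiag D M)
    {u : V} {ψ : Dual K V} (h : TX M u ψ) (i j : Fin t) (hij : i ≠ j) (hPu : π.P i u ≠ 0)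
    (x : V) (hx : x ∈ D j) (hψx : ψ x ≠ 0)
    (hc : π.P j u = 0 ∨ ψ (π.P j u) ≠ 0) : OffDiag D M := by
  obtain ⟨w', hw', hψw', χ', hχ', hχw', hχ0, hχu⟩ : ∃ w' ∈ D j, ψ w' ≠ 0 ∧ ∃ χ' : Dual K V,
      Dl D j χ' ∧ χ' w' = 0 ∧ χ' ≠ 0 ∧ χ' u = 0 := by
    rcases hc with hc | hc
    · obtain ⟨χ', h1, h2, h3⟩ := exists_dl_kill hD le_rfl π j x hx
      refine ⟨x, hx, hψx, χ', h1, h2, h3, ?_⟩
      rw [dl_apply π h1 u, hc, map_zero]
    · obtain ⟨χ', h1, h2, h3⟩ := exists_dl_kill hD le_rfl π j (π.P j u) (π.mem j u)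
      refine ⟨π.P j u, π.mem j u, hc, χ', h1, h2, h3, ?_⟩
      rw [dl_apply π h1 u, h2]
  have h1 : TX M u (ψ w' • χ') := h.comm (hB j w' hw' χ' hχ' hχw') hχu
  exact axis h1 i j hij (dl_smul hχ' _) (smul_ne_zero hψw' hχ0) hPu

theorem b22_dil [FiniteDimensional K V] (π : Proj D)
    (M : Subgroup (V ≃ₗ[K] V))
    (dil : ∀ (k r : Fin t), k ≠ r → ∀ x₁ ∈ D k, ∀ χ₁ : Dual K V, Dl D k χ₁ → χ₁ x₁ = 1 →
      ∀ x₂ ∈ D r, ∀ χ₂ : Dual K V, Dl D r χ₂ → χ₂ x₂ = 1 → ∀ a : K, a ≠ 0 →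
      ∃ h ∈ M, (∀ y, h y = y + ((a - 1) * χ₁ y) • x₁ + ((a⁻¹ - 1) * χ₂ y) • x₂) ∧
        (∀ y, h.symm y = y + ((a⁻¹ - 1) * χ₁ y) • x₁ + ((a - 1) * χ₂ y) • x₂))
    {u : V} {ψ : Dual K V} (h : TX M u ψ) (k r : Fin t) (hkr : k ≠ r) (hPk : π.P k u ≠ 0)
    (hψPk : ψ (π.P k u) = 0) (x₂ : V) (hx₂ : x₂ ∈ D r) (χ₂ : Dual K V) (hχ₂ : Dl D r χ₂)
    (hχx : χ₂ x₂ = 1) (hχu : χ₂ u = 0) (a : K) (ha : a ≠ 0) :
    TX M (u + (a - 1) • π.P k u) (ψ + ((a - 1) * ψ x₂) • χ₂) := by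
  obtain ⟨χ₁, hχ₁, hχ₁u⟩ := b22_exists_dual_one π k (π.P k u) (π.mem k u) hPk
  have hχ₁u' : χ₁ u = 1 := by rw [dl_apply π hχ₁ u, hχ₁u]
  obtain ⟨e, heM, he1, he2⟩ := dil k r hkr (π.P k u) (π.mem k u) χ₁ hχ₁ hχ₁u x₂ hx₂ χ₂ hχ₂ hχx a ha
  have h1 := h.conj heM
  have e1 : e u = u + (a - 1) • π.P k u := by
    rw [he1, hχ₁u', hχu, mul_one, mul_zero, zero_smul, add_zero]
  have e2 : ψ ∘ₗ (e.symm : V →ₗ[K] V) = ψ + ((a - 1) * ψ x₂) • χ₂ := by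
    ext y
    simp only [LinearMap.comp_apply, LinearEquiv.coe_coe, LinearMap.add_apply, LinearMap.smul_apply,
      smul_eq_mul]
    rw [he2, map_add, map_add, map_smul, map_smul, hψPk, smul_zero, add_zero, smul_eq_mul]
    ring
  rw [e1, e2] at h1
  exact h1

theorem offDiag_of_nonBlock_two [FiniteDimensional K V] [Fintype K] (hq : 3 ≤ Fintype.card K)
    (hD : IsDec 2 D) (ht : 3 ≤ t) (π : Proj D)
    (M : Subgroup (V ≃ₗ[K] V)) (hB : HasBlock D M)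
    (ctr : ∀ {w : V} {ψ : Dual K V}, TX M w ψ → ∀ i j : Fin t, i ≠ j → w ∈ D i → w ≠ 0 →
      ∀ x ∈ D j, ψ x ≠ 0 → OffDiag D M)
    (axis : ∀ {u : V} {χ : Dual K V}, TX M u χ → ∀ i j : Fin t, i ≠ j → Dl D j χ → χ ≠ 0 →
      π.P i u ≠ 0 → OffDiag D M)
    (dil : ∀ (k r : Fin t), k ≠ r → ∀ x₁ ∈ D k, ∀ χ₁ : Dual K V, Dl D k χ₁ → χ₁ x₁ = 1 →
      ∀ x₂ ∈ D r, ∀ χ₂ : Dual K V, Dl D r χ₂ → χ₂ x₂ = 1 → ∀ a : K, a ≠ 0 →
      ∃ h ∈ M, (∀ y, h y = y + ((a - 1) * χ₁ y) • x₁ + ((a⁻¹ - 1) * χ₂ y) • x₂) ∧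
        (∀ y, h.symm y = y + ((a⁻¹ - 1) * χ₁ y) • x₁ + ((a - 1) * χ₂ y) • x₂))
    {u : V} {ψ : Dual K V} (h : TX M u ψ) (hnb : NonBlock D u ψ) : OffDiag D M := by
  classical
  obtain ⟨i, j, hij, hPi, x, hx, hψx⟩ := exists_pair_of_nonBlock π hnb
  by_cases hc1 : (∀ y ∈ D i, ψ y = 0) ∨ ψ (π.P i u) ≠ 0
  · exact b22_X1 hD π M hB ctr h i j hij hPi x hx hψx hc1
  by_cases hc2 : π.P j u = 0 ∨ ψ (π.P j u) ≠ 0
  · exact b22_X2 hD π M hB axis h i j hij hPi x hx hψx hc2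
  push Not at hc1 hc2
  obtain ⟨-, hψPi⟩ := hc1
  obtain ⟨hPj, hψPj⟩ := hc2
  obtain ⟨r, hri, hrj⟩ := b22_exists_third (α := Fin t) (by rw [Fintype.card_fin]; exact ht) i j
  obtain ⟨a, ha0, ha1⟩ := b22_exists_third hq (0 : K) 1
  have hε : a - 1 ≠ 0 := sub_ne_zero.2 ha1
  by_cases hPr : π.P r u = 0
  · by_cases hψr : ∀ y ∈ D r, ψ y = 0
    · -- (r3)
      obtain ⟨x₂, hx₂, hx₂0⟩ := exists_ne_zero_mem hD (by norm_num) r
      obtain ⟨χ₂, hχ₂, hχ₂x⟩ := b22_exists_dual_one π r x₂ hx₂ hx₂0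
      have hχ₂u : χ₂ u = 0 := by rw [dl_apply π hχ₂ u, hPr, map_zero]
      have h1 := b22_dil π M dil h i r hri.symm hPi hψPi x₂ hx₂ χ₂ hχ₂ hχ₂x hχ₂u a ha0
      rw [hψr x₂ hx₂, mul_zero, zero_smul, add_zero] at h1
      have h2 := h1.sub_left h
      rw [add_sub_cancel_left] at h2
      exact ctr h2 i j hij ((D i).smul_mem _ (π.mem i u)) (smul_ne_zero hε hPi) x hx hψx
    · -- (r2)
      push Not at hψr
      obtain ⟨xr, hxr, hψxr⟩ := hψr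
      exact b22_X2 hD π M hB axis h i r hri.symm hPi xr hxr hψxr (Or.inl hPr)
  · by_cases hc3 : (∀ y ∈ D r, ψ y = 0) ∨ ψ (π.P r u) ≠ 0
    · -- (r1)
      exact b22_X1 hD π M hB ctr h r j hrj hPr x hx hψx hc3
    · -- (r4)
      push Not at hc3
      obtain ⟨⟨xr, hxr, hψxr⟩, hψPr⟩ := hc3
      have key : ∀ (s : Fin t), i ≠ s → ∀ z ∈ D s, ψ z ≠ 0 → ψ (π.P s u) = 0 →
          TX M (u + (a - 1) • π.P i u) (ψ + (a - 1) • (ψ ∘ₗ π.P s)) := by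
        intro s his z hz hψz hψPs
        have h1 := b22_dil π M dil h i s his hPi hψPi ((ψ z)⁻¹ • z) ((D s).smul_mem _ hz)
          (ψ ∘ₗ π.P s) (dl_comp_proj π s ψ)
          (by rw [LinearMap.comp_apply, map_smul, map_smul, π.self s z hz, smul_eq_mul,
                inv_mul_cancel₀ hψz])
          (by rw [LinearMap.comp_apply, hψPs]) a ha0
        rw [map_smul, smul_eq_mul, inv_mul_cancel₀ hψz, mul_one] at h1
        exact h1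
      have h1 := key j hij x hx hψx hψPj
      have h2 := key r hri.symm xr hxr hψxr hψPr
      have h3 := h1.sub_right h2
      rw [add_sub_add_left_eq_sub] at h3
      refine b22_X1 hD π M hB ctr h3 i j hij ?_ x hx ?_ (Or.inl ?_)
      · rw [map_add, map_smul, π.self i _ (π.mem i u), ← one_smul K (π.P i u), smul_smul, ← add_smul]
        refine smul_ne_zero ?_ hPi
        rw [mul_one, add_sub_cancel]
        exact ha0
      · simp only [LinearMap.sub_apply, LinearMap.smul_apply, LinearMap.comp_apply, smul_eq_mul]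
        rw [π.self j x hx, π.other r j hrj.symm x hx, map_zero, mul_zero, sub_zero]
        exact mul_ne_zero hε hψx
      · intro y hy
        simp only [LinearMap.sub_apply, LinearMap.smul_apply, LinearMap.comp_apply, smul_eq_mul]
        rw [π.other j i hij y hy, π.other r i hri.symm y hy, map_zero, mul_zero, sub_zero]

end Cfsg.Agent.Lib.Helper90.C2
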