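import Cfsg.Agent.Lib.Helper90.C2.Fun
import Cfsg.Agent.Lib.Helper90.C2.B2A

set_option autoImplicit false

namespace Cfsg.Agent.Lib.Helper90.C2

open Matrix Module Cfsg.Agent.Lib.Helper95 Cfsg.Agent.Lib.Helper97

variable {K V : Type*} [Field K] [AddCommGroup V] [Module K V] {t m : ℕ} {D : Fin t → Submodule K V}

theorem b3a_exists_block_ne_zero (π : Proj D) {ψ : Dual K V} (hψ : ψ ≠ 0) :
    ∃ j, ∃ x ∈ D j, ψ x ≠ 0 := by
  by_contra hcon
  push Not at hcon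
  apply hψ
  ext y
  rw [← π.sum y, map_sum]
  exact Finset.sum_eq_zero (fun i _ => hcon i _ (π.mem i y))

theorem EE_of_one [FiniteDimensional K V] (hD : IsDec m D) (hm : 2 ≤ m) (π : Proj D)
    (M : Subgroup (V ≃ₗ[K] V)) (hB : HasBlock D M) {i j : Fin t} (hij : i ≠ j)
    {w : V} (hw : w ∈ D i) (hw0 : w ≠ 0) {χ : Dual K V} (hχ : Dl D j χ) (hχ0 : χ ≠ 0) (h : TX M w χ) :
    EE D M i j := by
  -- Step 1
  have step1a : ∀ w'' ∈ D i, w'' ∉ Submodule.span K {w} → TX M w'' χ := by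
    intro w'' hw'' hn
    obtain ⟨χ'', hχ'', h1, h2⟩ := exists_dl_sep π i w'' w hw'' hw (not_mem_span_symm hw0 hn)
    have h3 : TX M w'' (χ'' w • χ) := (hB i w'' hw'' χ'' hχ'' h1).comm h (hχ i hij w'' hw'')
    rwa [h2, one_smul] at h3
  have step1 : ∀ w'' ∈ D i, TX M w'' χ := by
    intro w'' hw''
    by_cases hn : w'' ∈ Submodule.span K {w}
    · obtain ⟨z, hz, hzn⟩ := exists_not_mem_span hD hm i w
      have h1 : w'' - z ∉ Submodule.span K {w} := by
        intro hmem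
        apply hzn
        have := Submodule.sub_mem _ hn hmem
        rwa [sub_sub_cancel] at this
      have h2 := (step1a (w'' - z) ((D i).sub_mem hw'' hz) h1).add_left (step1a z hz hzn)
      rwa [sub_add_cancel] at h2
    · exact step1a w'' hw'' hn
  -- Step 2
  have good : ∀ w'' ∈ D i, ∀ χ' : Dual K V, Dl D j χ' → ∀ w₂ ∈ D j, χ' w₂ = 0 → χ w₂ = 1 →
      TX M w'' χ' := by
    intro w'' hw'' χ' hχ' w₂ hw₂ h1 h2
    have h3 : TX M w'' (χ w₂ • χ') := (step1 w'' hw'').comm (hB j w₂ hw₂ χ' hχ' h1)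
      (hχ' i hij w'' hw'')
    rwa [h2, one_smul] at h3
  obtain ⟨w₂, hw₂, hχw₂⟩ : ∃ w₂ ∈ D j, χ w₂ = 1 := by
    obtain ⟨k, x, hx, hχx⟩ := b3a_exists_block_ne_zero π hχ0
    have hk : k = j := by
      by_contra hne
      exact hχx (hχ k hne x hx)
    subst hk
    refine ⟨(χ x)⁻¹ • x, (D k).smul_mem _ hx, ?_⟩
    rw [map_smul, smul_eq_mul, inv_mul_cancel₀ hχx]
  obtain ⟨z, hz, hz0, hχz⟩ := exists_ker_ne_zero hD hm j χ
  have hzn : z ∉ Submodule.span K {w₂} := by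
    intro hmem
    obtain ⟨c, hc⟩ := Submodule.mem_span_singleton.1 hmem
    apply hz0
    have h1 : χ z = c := by rw [← hc, map_smul, hχw₂, smul_eq_mul, mul_one]
    rw [hχz] at h1
    rw [← hc, ← h1, zero_smul]
  obtain ⟨χ₃, hχ₃, h31, h32⟩ := exists_dl_sep π j w₂ z hw₂ hz hzn
  intro w'' hw'' χ' hχ'
  have hA : TX M w'' ((χ' w₂ + χ' z) • χ₃) := by
    refine good w'' hw'' _ ?_ w₂ hw₂ ?_ hχw₂
    · intro k hk y hy
      rw [LinearMap.smul_apply, hχ₃ k hk y hy, smul_zero]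
    · rw [LinearMap.smul_apply, h31, smul_zero]
  have hBB : TX M w'' (χ' - (χ' w₂ + χ' z) • χ₃) := by
    refine good w'' hw'' _ ?_ (w₂ + z) ((D j).add_mem hw₂ hz) ?_ ?_
    · intro k hk y hy
      rw [LinearMap.sub_apply, LinearMap.smul_apply, hχ₃ k hk y hy, hχ' k hk y hy, smul_zero,
        sub_zero]
    · rw [LinearMap.sub_apply, LinearMap.smul_apply, map_add, map_add, h31, h32, smul_eq_mul]
      ring
    · rw [map_add, hχw₂, hχz, add_zero]
  have := hA.add_right hBB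
  rwa [add_sub_cancel] at this

end Cfsg.Agent.Lib.Helper90.C2
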