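import Cfsg.Agent.Lib.Helper90.C2.Defs

set_option autoImplicit false

namespace Cfsg.Agent.Lib.Helper90.C2

open Matrix Module Cfsg.Agent.Lib.Helper95 Cfsg.Agent.Lib.Helper97

variable {K V : Type*} [Field K] [AddCommGroup V] [Module K V] {t m : ℕ} {D : Fin t → Submodule K V}

theorem b3b_exists_perm {α : Type*} [DecidableEq α] {i j i' j' : α} (hij : i ≠ j) (hij' : i' ≠ j') :
    ∃ σ : Equiv.Perm α, σ i = i' ∧ σ j = j' := by
  refine ⟨Equiv.swap (Equiv.swap i i' j) j' * Equiv.swap i i', ?_, ?_⟩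
  · rw [Equiv.Perm.mul_apply, Equiv.swap_apply_left]
    apply Equiv.swap_apply_of_ne_of_ne
    · intro h
      have h1 : Equiv.swap i i' i = Equiv.swap i i' j := by rw [Equiv.swap_apply_left]; exact h
      exact hij ((Equiv.swap i i').injective h1)
    · exact hij'
  · rw [Equiv.Perm.mul_apply, Equiv.swap_apply_left]

theorem EE_all (M : Subgroup (V ≃ₗ[K] V))
    (perm : ∀ σ : Equiv.Perm (Fin t), ∃ h ∈ M, ∀ i, (D i).map (h : V →ₗ[K] V) = D (σ i))
    {i j : Fin t} (hij : i ≠ j) (h : EE D M i j) : ∀ i' j' : Fin t, i' ≠ j' → EE D M i' j' := by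
  intro i' j' hij' w' hw' χ' hχ'
  obtain ⟨σ, hσi, hσj⟩ := b3b_exists_perm hij hij'
  obtain ⟨e, heM, he⟩ := perm σ
  have h1 : w' ∈ (D i).map (e : V →ₗ[K] V) := by rw [he, hσi]; exact hw'
  obtain ⟨w, hw, rfl⟩ := h1
  have hχ : Dl D j (χ' ∘ₗ (e : V →ₗ[K] V)) := by
    intro k hk x hx
    have h2 : (e : V →ₗ[K] V) x ∈ D (σ k) := by
      rw [← he]
      exact ⟨x, hx, rfl⟩
    have h3 : σ k ≠ j' := by
      intro h4
      exact hk (σ.injective (h4.trans hσj.symm))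
    exact hχ' (σ k) h3 _ h2
  have h5 := (h w hw _ hχ).conj heM
  have h6 : (χ' ∘ₗ (e : V →ₗ[K] V)) ∘ₗ (e.symm : V →ₗ[K] V) = χ' := by
    ext x; simp
  rw [h6] at h5
  exact h5

end Cfsg.Agent.Lib.Helper90.C2
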