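import Cfsg.Agent.Lib.Helper90.C2.Fun

set_option autoImplicit false

namespace Cfsg.Agent.Lib.Helper90.C2

open Matrix Module Cfsg.Agent.Lib.Helper95 Cfsg.Agent.Lib.Helper97

variable {K V : Type*} [Field K] [AddCommGroup V] [Module K V] {t m : ℕ} {D : Fin t → Submodule K V}

theorem TX_sum {M : Subgroup (V ≃ₗ[K] V)} {α : Type*} (s : Finset α) (v : V) (φ : α → Dual K V)
    (h : ∀ a ∈ s, TX M v (φ a)) : TX M v (∑ a ∈ s, φ a) := by
  classical
  induction s using Finset.induction_on with
  | empty => simpa using TX_zero_right v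
  | insert a s ha ih =>
    rw [Finset.sum_insert ha]
    exact (h a (Finset.mem_insert_self a s)).add_right
      (ih (fun b hb => h b (Finset.mem_insert_of_mem hb)))

theorem transvection_mem_of_EE (hD : IsDec m D) (π : Proj D) (M : Subgroup (V ≃ₗ[K] V)) (hB : HasBlock D M)
    (hE : ∀ i j : Fin t, i ≠ j → EE D M i j) (f : Dual K V) (v : V) (hfv : f v = 0) :
    LinearEquiv.transvection hfv ∈ M := by
  apply transvection_mem_of_fullSub_eq_top
  rw [eq_top_iff, ← hD.iSup_eq_top]
  apply iSup_le
  intro i v hv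
  rw [mem_fullSub]
  intro φ hφ
  rw [← sum_comp_proj π φ]
  apply TX_sum
  intro k _
  by_cases hk : k = i
  · subst hk
    exact hB k v hv _ (dl_comp_proj π k φ) (by simp [π.self k v hv, hφ])
  · exact hE i k (Ne.symm hk) v hv _ (dl_comp_proj π k φ)

end Cfsg.Agent.Lib.Helper90.C2
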