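import Cfsg.Agent.Lib.Helper90.C2.Defs

set_option autoImplicit false

namespace Cfsg.Agent.Lib.Helper90.C2

open Matrix Module Cfsg.Agent.Lib.Helper95 Cfsg.Agent.Lib.Helper97

variable {ι : Type} [Fintype ι] [DecidableEq ι] {F : Type*} [Field F]

theorem dg_apply (d : ι → Fˣ) (i j : ι) :
    ((dg d : GL ι F) : Matrix ι ι F) i j = if i = j then (d i : F) else 0 := by
  simp [dg, diagonal_apply]

theorem dg_inv (d : ι → Fˣ) : (dg d : GL ι F)⁻¹ = dg (fun i => (d i)⁻¹) := by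
  apply Units.ext
  rfl

theorem dg_mul (d d' : ι → Fˣ) : (dg (d * d') : GL ι F) = dg d * dg d' := by
  apply Units.ext
  simp [dg, diagonal_mul_diagonal]

theorem det_dg (d : ι → Fˣ) : ((dg d : GL ι F) : Matrix ι ι F).det = ∏ i, (d i : F) := by
  simp [dg]

theorem det_d1 (a : ι) (c : Fˣ) : ((d1 a c : GL ι F) : Matrix ι ι F).det = c := by
  rw [d1, det_dg, Finset.prod_eq_single a]
  · simp
  · intro b _ hb; simp [Pi.mulSingle_eq_of_ne hb]
  · simp

theorem d1_apply (a : ι) (c : Fˣ) (i j : ι) :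
    ((d1 a c : GL ι F) : Matrix ι ι F) i j = if i = j then (if i = a then (c : F) else 1) else 0 := by
  rw [d1, dg_apply]
  by_cases h : i = j
  · subst h
    by_cases h' : i = a
    · subst h'; simp
    · simp [Pi.mulSingle_eq_of_ne h', h']
  · simp [h]

theorem d1_inv (a : ι) (c : Fˣ) : (d1 a c : GL ι F)⁻¹ = d1 a c⁻¹ := by
  rw [d1, dg_inv, d1]
  congr 1
  funext i
  by_cases h : i = a
  · subst h; simp
  · simp [Pi.mulSingle_eq_of_ne h]

theorem dg_mul_apply (d : ι → Fˣ) (A : Matrix ι ι F) (i j : ι) :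
    (((dg d : GL ι F) : Matrix ι ι F) * A) i j = d i * A i j := by
  simp [dg, diagonal_mul]

theorem mul_dg_apply (d : ι → Fˣ) (A : Matrix ι ι F) (i j : ι) :
    (A * ((dg d : GL ι F) : Matrix ι ι F)) i j = A i j * d j := by
  simp [dg, mul_diagonal]

theorem pm_apply (σ : Equiv.Perm ι) (i j : ι) :
    ((pm σ : GL ι F) : Matrix ι ι F) i j = if i = σ j then 1 else 0 := by
  simp only [pm, Equiv.Perm.permMatrix, PEquiv.toMatrix_apply, Equiv.toPEquiv_apply, Option.mem_def,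
    Option.some.injEq]
  by_cases h : i = σ j
  · subst h; simp
  · have : ¬ (Equiv.symm σ) i = j := fun h' => h (by rw [← h']; simp)
    simp [h, this]

theorem pm_mul (σ τ : Equiv.Perm ι) : (pm (σ * τ) : GL ι F) = pm σ * pm τ := by
  apply Units.ext
  simp [pm, _root_.mul_inv_rev, Matrix.permMatrix_mul]

theorem pm_one : (pm (1 : Equiv.Perm ι) : GL ι F) = 1 := by
  apply Units.ext
  simp [pm]

theorem pm_inv (σ : Equiv.Perm ι) : (pm σ : GL ι F)⁻¹ = pm σ⁻¹ := by
  apply Units.ext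
  simp [pm]

theorem pm_injective : Function.Injective (pm : Equiv.Perm ι → GL ι F) := by
  intro σ τ h
  ext j
  have h1 : ((pm σ : GL ι F) : Matrix ι ι F) (σ j) j = ((pm τ : GL ι F) : Matrix ι ι F) (σ j) j := by rw [h]
  rw [pm_apply, pm_apply] at h1
  by_contra hne
  simp [hne] at h1

theorem det_pm (σ : Equiv.Perm ι) :
    ((pm σ : GL ι F) : Matrix ι ι F).det = ((Equiv.Perm.sign σ : ℤ) : F) := by
  simp [pm, Matrix.det_permutation]

theorem pm_mul_apply (σ : Equiv.Perm ι) (A : Matrix ι ι F) (i j : ι) :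
    (((pm σ : GL ι F) : Matrix ι ι F) * A) (σ i) j = A i j := by
  rw [Matrix.mul_apply, Finset.sum_eq_single i]
  · simp [pm_apply]
  · intro b _ hb
    have : σ i ≠ σ b := fun h => hb (σ.injective h).symm
    simp [pm_apply, this]
  · simp

theorem mul_pm_apply (σ : Equiv.Perm ι) (A : Matrix ι ι F) (i j : ι) :
    (A * ((pm σ : GL ι F) : Matrix ι ι F)) i j = A i (σ j) := by
  rw [Matrix.mul_apply, Finset.sum_eq_single (σ j)]
  · simp [pm_apply]
  · intro b _ hb
    simp [pm_apply, hb]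
  · simp

theorem det_tv (u ψ : ι → F) (h : ψ ⬝ᵥ u = 0) : ((tv u ψ h : GL ι F) : Matrix ι ι F).det = 1 := by
  change (1 + vecMulVec u ψ).det = 1
  rw [vecMulVec_eq Unit, Matrix.det_one_add_replicateCol_mul_replicateRow, h, add_zero]

theorem isMono_one : IsMono (1 : Matrix ι ι F) := fun j => ⟨j, fun i' h => by simp [h]⟩

theorem isMono_dg (d : ι → Fˣ) : IsMono ((dg d : GL ι F) : Matrix ι ι F) :=
  fun j => ⟨j, fun i' h => by simp [dg_apply, h]⟩

theorem isMono_d1 (a : ι) (c : Fˣ) : IsMono ((d1 a c : GL ι F) : Matrix ι ι F) := isMono_dg _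

theorem isMono_pm (σ : Equiv.Perm ι) : IsMono ((pm σ : GL ι F) : Matrix ι ι F) :=
  fun j => ⟨σ j, fun i' h => by simp [pm_apply, h]⟩

theorem IsMono.mul {A B : Matrix ι ι F} (hA : IsMono A) (hB : IsMono B) : IsMono (A * B) := by
  intro j
  obtain ⟨k, hk⟩ := hB j
  obtain ⟨i, hi⟩ := hA k
  refine ⟨i, fun i' h => ?_⟩
  rw [Matrix.mul_apply]
  apply Finset.sum_eq_zero
  intro l _
  by_cases hl : l = k
  · subst hl; rw [hi i' h, zero_mul]
  · rw [hk l hl, mul_zero]

theorem inv_mul_apply (g : GL ι F) (i j : ι) :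
    ∑ k, ((g⁻¹ : GL ι F) : Matrix ι ι F) i k * (g : Matrix ι ι F) k j = if i = j then 1 else 0 := by
  rw [← Matrix.mul_apply, ← Units.val_mul, inv_mul_cancel, Units.val_one, Matrix.one_apply]

theorem mul_inv_apply (g : GL ι F) (i j : ι) :
    ∑ k, (g : Matrix ι ι F) i k * ((g⁻¹ : GL ι F) : Matrix ι ι F) k j = if i = j then 1 else 0 := by
  rw [← Matrix.mul_apply, ← Units.val_mul, mul_inv_cancel, Units.val_one, Matrix.one_apply]

theorem exists_col_ne_zero (g : GL ι F) (j : ι) : ∃ i, (g : Matrix ι ι F) i j ≠ 0 := by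
  by_contra h
  push Not at h
  have := inv_mul_apply g j j
  simp [h] at this

theorem exists_row_ne_zero (g : GL ι F) (i : ι) : ∃ j, (g : Matrix ι ι F) i j ≠ 0 := by
  by_contra h
  push Not at h
  have := mul_inv_apply g i i
  simp [h] at this

theorem isMono_iff_perm (g : GL ι F) : IsMono (g : Matrix ι ι F) ↔
    ∃ σ : Equiv.Perm ι, ∀ i j, i ≠ σ j → (g : Matrix ι ι F) i j = 0 := by
  constructor
  · intro h
    choose f hf using h
    have hsurj : Function.Surjective f := by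
      intro i
      obtain ⟨j, hj⟩ := exists_row_ne_zero g i
      refine ⟨j, ?_⟩
      by_contra hne
      exact hj (hf j i (Ne.symm hne))
    have hbij : Function.Bijective f := ⟨Finite.injective_iff_surjective.2 hsurj, hsurj⟩
    exact ⟨Equiv.ofBijective f hbij, fun i j hij => hf j i hij⟩
  · rintro ⟨σ, hσ⟩ j
    exact ⟨σ j, fun i' h => hσ i' j h⟩

theorem IsMono.inv {g : GL ι F} (hg : IsMono (g : Matrix ι ι F)) :
    IsMono ((g⁻¹ : GL ι F) : Matrix ι ι F) := by
  obtain ⟨σ, hσ⟩ := (isMono_iff_perm g).1 hg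
  rw [isMono_iff_perm]
  refine ⟨σ⁻¹, fun i j hij => ?_⟩
  -- (g⁻¹ g)_{i, σ⁻¹ j} = (g⁻¹)_{i j} g_{j, σ⁻¹ j}
  have h1 := inv_mul_apply g i (σ⁻¹ j)
  rw [Finset.sum_eq_single j] at h1
  · rw [if_neg hij] at h1
    have h2 : (g : Matrix ι ι F) j (σ⁻¹ j) ≠ 0 := by
      obtain ⟨k, hk⟩ := exists_col_ne_zero g (σ⁻¹ j)
      by_cases hkj : k = j
      · rwa [hkj] at hk
      · exact absurd (hσ k (σ⁻¹ j) (by simpa using hkj)) hk
    exact (mul_eq_zero.1 h1).resolve_right h2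
  · intro b _ hb
    rw [hσ b (σ⁻¹ j) (by simpa using hb), mul_zero]
  · simp

theorem HasMono.sl {Y : Subgroup (GL ι F)} (h : HasMono Y) : HasMonoSL Y := fun g hg _ => h g hg

/-- the torus element `d_a(c) d_b(c⁻¹)` lies in `X` -/
theorem d2_mem {X : Subgroup (GL ι F)} (hX : HasMonoSL X) {a b : ι} (hab : a ≠ b) (c : Fˣ) :
    (d1 a c * d1 b c⁻¹ : GL ι F) ∈ X := by
  apply hX
  · rw [Units.val_mul]; exact (isMono_d1 a c).mul (isMono_d1 b c⁻¹)
  · rw [Units.val_mul, Matrix.det_mul, det_d1, det_d1]; simp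

end Cfsg.Agent.Lib.Helper90.C2
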