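import Cfsg.Agent.Lib.Helper90.C2.Defs

set_option autoImplicit false

namespace Cfsg.Agent.Lib.Helper90.C2

open Matrix Module Cfsg.Agent.Lib.Helper95 Cfsg.Agent.Lib.Helper97

variable {K V : Type*} [Field K] [AddCommGroup V] [Module K V] {t m : ℕ} {D : Fin t → Submodule K V}

theorem nonempty_proj (hD : IsDec m D) : Nonempty (Proj D) := by
  classical
  have hint : DirectSum.IsInternal D :=
    DirectSum.isInternal_submodule_of_iSupIndep_of_iSup_eq_top hD.indep hD.iSup_eq_top
  let e : (DirectSum (Fin t) fun i => D i) ≃ₗ[K] V := LinearEquiv.ofBijective (DirectSum.coeLinearMap D) hint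
  have he : ∀ (k : Fin t) (x : V) (hx : x ∈ D k),
      e.symm x = DirectSum.lof K (Fin t) (fun i => D i) k ⟨x, hx⟩ := by
    intro k x hx
    rw [LinearEquiv.symm_apply_eq]
    change x = DirectSum.coeLinearMap D (DirectSum.lof K (Fin t) (fun i => D i) k ⟨x, hx⟩)
    rw [DirectSum.coeLinearMap_lof]
  let P : Fin t → (V →ₗ[K] V) := fun i =>
    (D i).subtype ∘ₗ DirectSum.component K (Fin t) (fun i => D i) i ∘ₗ e.symm.toLinearMap
  have hself : ∀ i, ∀ x ∈ D i, P i x = x := by
    intro i x hx
    simp only [P, LinearMap.comp_apply, LinearEquiv.coe_coe, he i x hx, DirectSum.component.lof_self,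
      Submodule.subtype_apply]
  have hother : ∀ i k, k ≠ i → ∀ x ∈ D k, P i x = 0 := by
    intro i k hki x hx
    simp only [P, LinearMap.comp_apply, LinearEquiv.coe_coe, he k x hx, DirectSum.component.of,
      Submodule.subtype_apply]
    rw [dif_neg hki]
    simp
  refine ⟨⟨P, fun i x => ?_, hself, hother, fun x => ?_⟩⟩
  · simp [P]
  · have hx : x ∈ iSup D := by rw [hD.iSup_eq_top]; trivial
    induction hx using Submodule.iSup_induction' with
    | mem k y hy =>
      rw [Finset.sum_eq_single k]
      · exact hself k y hy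
      · intro b _ hb; exact hother b k (Ne.symm hb) y hy
      · simp
    | zero => simp
    | add y z _ _ hy hz => simp only [map_add, Finset.sum_add_distrib, hy, hz]

end Cfsg.Agent.Lib.Helper90.C2
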