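import Cfsg.Agent.Lib.Helper90.C2.B0

set_option autoImplicit false

namespace Cfsg.Agent.Lib.Helper90.C2

open Matrix Module Cfsg.Agent.Lib.Helper95 Cfsg.Agent.Lib.Helper97

variable {K V : Type*} [Field K] [AddCommGroup V] [Module K V] {t m : ℕ} {D : Fin t → Submodule K V}

theorem exists_dil [FiniteDimensional K V] (M : Subgroup (V ≃ₗ[K] V)) (hM : HasH D M)
    (k r : Fin t) (hkr : k ≠ r) (x₁ : V) (hx₁ : x₁ ∈ D k) (χ₁ : Dual K V) (hχ₁ : Dl D k χ₁) (h₁ : χ₁ x₁ = 1)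
    (x₂ : V) (hx₂ : x₂ ∈ D r) (χ₂ : Dual K V) (hχ₂ : Dl D r χ₂) (h₂ : χ₂ x₂ = 1) (a : K) (ha : a ≠ 0) :
    ∃ h ∈ M, (∀ y, h y = y + ((a - 1) * χ₁ y) • x₁ + ((a⁻¹ - 1) * χ₂ y) • x₂) ∧
      (∀ y, h.symm y = y + ((a⁻¹ - 1) * χ₁ y) • x₁ + ((a - 1) * χ₂ y) • x₂) := by
  have h12 : χ₁ x₂ = 0 := hχ₁ r (Ne.symm hkr) x₂ hx₂
  have h21 : χ₂ x₁ = 0 := hχ₂ k hkr x₁ hx₁
  let T : K → K → (V →ₗ[K] V) := fun b c =>
    LinearMap.transvection ((b - 1) • χ₁) x₁ ∘ₗ LinearMap.transvection ((c - 1) • χ₂) x₂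
  have hT : ∀ b c y, T b c y = y + ((b - 1) * χ₁ y) • x₁ + ((c - 1) * χ₂ y) • x₂ := by
    intro b c y
    simp only [T, LinearMap.comp_apply, LinearMap.transvection.apply, LinearMap.smul_apply, map_add,
      map_smul, smul_eq_mul, h12, mul_zero, add_zero, smul_add, zero_smul, smul_zero]
  have hcomp : ∀ b c : K, b * c = 1 → T b c ∘ₗ T c b = LinearMap.id := by
    intro b c hbc
    ext y
    simp only [LinearMap.comp_apply, hT, map_add, map_smul, smul_eq_mul, h₁, h₂, h12, h21, mul_zero,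
      add_zero, mul_one, zero_add, LinearMap.id_apply]
    have e1 : ((c - 1) * χ₁ y) + ((b - 1) * (χ₁ y + (c - 1) * χ₁ y)) = 0 := by
      linear_combination (χ₁ y) * hbc
    have e2 : ((b - 1) * χ₂ y) + ((c - 1) * (χ₂ y + (b - 1) * χ₂ y)) = 0 := by
      linear_combination (χ₂ y) * hbc
    calc _ = y + (((c - 1) * χ₁ y) + ((b - 1) * (χ₁ y + (c - 1) * χ₁ y))) • x₁
          + (((b - 1) * χ₂ y) + ((c - 1) * (χ₂ y + (b - 1) * χ₂ y))) • x₂ := by
          simp only [add_smul]; abel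
      _ = y := by rw [e1, e2]; simp
  let h : V ≃ₗ[K] V := LinearEquiv.ofLinearMap (T a a⁻¹) (T a⁻¹ a) (hcomp a a⁻¹ (mul_inv_cancel₀ ha))
    (hcomp a⁻¹ a (inv_mul_cancel₀ ha))
  have hh : ∀ y, h y = y + ((a - 1) * χ₁ y) • x₁ + ((a⁻¹ - 1) * χ₂ y) • x₂ := fun y => hT a a⁻¹ y
  have hs : ∀ y, h.symm y = y + ((a⁻¹ - 1) * χ₁ y) • x₁ + ((a - 1) * χ₂ y) • x₂ := fun y => hT a⁻¹ a y
  refine ⟨h, hM h ?_ ?_, hh, hs⟩
  · change LinearEquiv.det h = 1
    apply Units.ext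
    rw [LinearEquiv.coe_det]
    change LinearMap.det (T a a⁻¹) = 1
    simp only [T, LinearMap.det_comp, LinearMap.transvection.det, LinearMap.smul_apply, h₁, h₂, smul_eq_mul,
      mul_one]
    field_simp
    ring
  · have key : ∀ (b c : K) (l : Fin t), ∀ y ∈ D l,
        y + ((b - 1) * χ₁ y) • x₁ + ((c - 1) * χ₂ y) • x₂ ∈ D l := by
      intro b c l y hy
      refine (D l).add_mem ((D l).add_mem hy ?_) ?_
      · by_cases hl : l = k
        · subst hl; exact (D l).smul_mem _ hx₁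
        · rw [hχ₁ l hl y hy]; simp
      · by_cases hl : l = r
        · subst hl; exact (D l).smul_mem _ hx₂
        · rw [hχ₂ l hl y hy]; simp
    apply stabD_of_le
    · intro l y hy; rw [hh]; exact key _ _ l y hy
    · intro l y hy; rw [hs]; exact key _ _ l y hy

end Cfsg.Agent.Lib.Helper90.C2
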