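import Cfsg.Prelude.Def_GeometricClasses
import Cfsg.Agent.Lib.Helper95.SLGen
import Cfsg.Agent.Lib.Helper97.FullVec

set_option autoImplicit false

/-! Definitions for the S5634 ladder (stabiliser of a decomposition is maximal in SL_n). -/

namespace Cfsg.Agent.Lib.Helper90.C2

open Matrix Module Cfsg.Agent.Lib.Helper95 Cfsg.Agent.Lib.Helper97

section Mono

variable {ι : Type} [Fintype ι] [DecidableEq ι] {F : Type*} [Field F]

/-- Every column has at most one non-zero entry (for an invertible matrix: monomial). -/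
def IsMono (A : Matrix ι ι F) : Prop := ∀ j, ∃ i, ∀ i', i' ≠ i → A i' j = 0

/-- `Y` contains all monomial matrices. -/
def HasMono (Y : Subgroup (GL ι F)) : Prop :=
  ∀ g : GL ι F, IsMono (g : Matrix ι ι F) → g ∈ Y

/-- `X` contains all monomial matrices of determinant one. -/
def HasMonoSL (X : Subgroup (GL ι F)) : Prop :=
  ∀ g : GL ι F, IsMono (g : Matrix ι ι F) → (g : Matrix ι ι F).det = 1 → g ∈ X

/-- `X` contains a non-trivial elementary transvection. -/
def HasElem (X : Subgroup (GL ι F)) : Prop :=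
  ∃ (i j : ι) (c : F) (g : GL ι F), i ≠ j ∧ c ≠ 0 ∧ (g : Matrix ι ι F) = 1 + Matrix.single i j c ∧ g ∈ X

/-- `X` contains a non-trivial transvection `1 + e_l ψ` with centre a basis vector. -/
def HasRow (X : Subgroup (GL ι F)) : Prop :=
  ∃ (l : ι) (ψ : ι → F) (g : GL ι F), ψ l = 0 ∧ ψ ≠ 0 ∧
    (g : Matrix ι ι F) = 1 + vecMulVec (Pi.single l 1) ψ ∧ g ∈ X

/-- `X` contains a non-monomial element one of whose columns has at most one non-zero entry. -/
def HasW1 (X : Subgroup (GL ι F)) : Prop :=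
  ∃ x ∈ X, ¬ IsMono (x : Matrix ι ι F) ∧ ∃ l l' : ι, ∀ i, i ≠ l' → (x : Matrix ι ι F) i l = 0

/-- Column `l` vanishes off the diagonal (`A e_l ∈ F e_l`). -/
def ColFix (l : ι) (A : Matrix ι ι F) : Prop := ∀ i, i ≠ l → A i l = 0

/-- The matrix induced on `V / F e_l`. -/
def bar (l : ι) (A : Matrix ι ι F) : Matrix {j // j ≠ l} {j // j ≠ l} F :=
  A.submatrix Subtype.val Subtype.val

/-- The property (S): `x_{ik} = 0 ↔ (x⁻¹)_{ki} = 0` for all elements of `Y`. -/
def PropS (Y : Subgroup (GL ι F)) : Prop :=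
  ∀ x ∈ Y, ∀ i k, (x : Matrix ι ι F) i k = 0 ↔ ((x⁻¹ : GL ι F) : Matrix ι ι F) k i = 0

/-- Two distinct columns of an element of `Y` have at most two common non-zero positions. -/
def Le2 (Y : Subgroup (GL ι F)) : Prop :=
  ∀ x ∈ Y, ∀ i k : ι, i ≠ k → ∀ j₁ j₂ j₃ : ι, j₁ ≠ j₂ → j₁ ≠ j₃ → j₂ ≠ j₃ →
    ((x : Matrix ι ι F) j₁ i ≠ 0 ∧ (x : Matrix ι ι F) j₁ k ≠ 0) →
    ((x : Matrix ι ι F) j₂ i ≠ 0 ∧ (x : Matrix ι ι F) j₂ k ≠ 0) →
    ((x : Matrix ι ι F) j₃ i ≠ 0 ∧ (x : Matrix ι ι F) j₃ k ≠ 0) → False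

/-- The diagonal matrix with entries `d`. -/
def dg (d : ι → Fˣ) : GL ι F where
  val := diagonal (fun i => (d i : F))
  inv := diagonal (fun i => (((d i)⁻¹ : Fˣ) : F))
  val_inv := by rw [diagonal_mul_diagonal]; simp
  inv_val := by rw [diagonal_mul_diagonal]; simp

/-- The diagonal matrix with entry `c` at `a` and `1` elsewhere. -/
def d1 (a : ι) (c : Fˣ) : GL ι F := dg (Pi.mulSingle a c)

/-- The permutation matrix with `pm σ e_j = e_{σ j}`. -/
def pm (σ : Equiv.Perm ι) : GL ι F where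
  val := (σ⁻¹).permMatrix F
  inv := σ.permMatrix F
  val_inv := by rw [← Matrix.permMatrix_mul]; simp
  inv_val := by rw [← Matrix.permMatrix_mul]; simp

/-- The transvection `1 + u ψ` (`ψ u = 0`) as an element of `GL`. -/
def tv (u ψ : ι → F) (h : ψ ⬝ᵥ u = 0) : GL ι F where
  val := 1 + vecMulVec u ψ
  inv := 1 - vecMulVec u ψ
  val_inv := by
    have : vecMulVec u ψ * vecMulVec u ψ = 0 := by
      rw [vecMulVec_mul_vecMulVec, h]; simp
    rw [add_mul, mul_sub, mul_sub, this]; simp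
  inv_val := by
    have : vecMulVec u ψ * vecMulVec u ψ = 0 := by
      rw [vecMulVec_mul_vecMulVec, h]; simp
    rw [sub_mul, mul_add, mul_add, this]; simp

end Mono

section Abstract

variable {K V : Type*} [Field K] [AddCommGroup V] [Module K V] {t : ℕ}

/-- Abstract decomposition into `t ≥ 2` subspaces of dimension `m`. -/
structure IsDec (m : ℕ) (D : Fin t → Submodule K V) : Prop where
  two_le : 2 ≤ t
  finrank_eq : ∀ i, finrank K (D i) = m
  indep : iSupIndep D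
  iSup_eq_top : iSup D = ⊤

/-- The projections of a decomposition. -/
structure Proj (D : Fin t → Submodule K V) where
  P : Fin t → (V →ₗ[K] V)
  mem : ∀ i x, P i x ∈ D i
  self : ∀ i, ∀ x ∈ D i, P i x = x
  other : ∀ i k, k ≠ i → ∀ x ∈ D k, P i x = 0
  sum : ∀ x, ∑ i, P i x = x

/-- `ψ` vanishes on all blocks except the `i`-th ("ψ ∈ D_i^*"). -/
def Dl (D : Fin t → Submodule K V) (i : Fin t) (ψ : Dual K V) : Prop :=
  ∀ k, k ≠ i → ∀ x ∈ D k, ψ x = 0

/-- `e` permutes the blocks. -/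
def StabD (D : Fin t → Submodule K V) (e : V ≃ₗ[K] V) : Prop :=
  ∃ σ : Equiv.Perm (Fin t), ∀ i, (D i).map (e : V →ₗ[K] V) = D (σ i)

/-- `M` contains the stabiliser of the decomposition in `SL(V)`. -/
def HasH (D : Fin t → Submodule K V) (M : Subgroup (V ≃ₗ[K] V)) : Prop :=
  ∀ e : V ≃ₗ[K] V, e ∈ slGrp K V → StabD D e → e ∈ M

/-- `M` contains the block transvections. -/
def HasBlock (D : Fin t → Submodule K V) (M : Subgroup (V ≃ₗ[K] V)) : Prop :=
  ∀ i, ∀ v ∈ D i, ∀ φ : Dual K V, Dl D i φ → φ v = 0 → TX M v φ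

/-- `M` contains all transvections with centre in `D i` and axis form in `D_j^*`. -/
def EE (D : Fin t → Submodule K V) (M : Subgroup (V ≃ₗ[K] V)) (i j : Fin t) : Prop :=
  ∀ w ∈ D i, ∀ χ : Dual K V, Dl D j χ → TX M w χ

/-- `M` contains a non-trivial transvection with centre in `D i`, axis form in `D_j^*`, `i ≠ j`. -/
def OffDiag (D : Fin t → Submodule K V) (M : Subgroup (V ≃ₗ[K] V)) : Prop :=
  ∃ i j, i ≠ j ∧ ∃ w ∈ D i, w ≠ 0 ∧ ∃ χ : Dual K V, Dl D j χ ∧ χ ≠ 0 ∧ TX M w χ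

/-- `(u, ψ)` is a non-trivial pair which is not a block pair. -/
def NonBlock (D : Fin t → Submodule K V) (u : V) (ψ : Dual K V) : Prop :=
  u ≠ 0 ∧ ψ ≠ 0 ∧ ¬ ∃ j, u ∈ D j ∧ Dl D j ψ

end Abstract

end Cfsg.Agent.Lib.Helper90.C2
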