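import Cfsg.Agent.Lib.Helper90.C2.Basic

set_option autoImplicit false

/-! Rung E of the S5634 ladder (written by helper59): an elementary transvection and the
monomial matrices of determinant one generate a group containing `SL`. -/

namespace Cfsg.Agent.Lib.Helper90.C2

open Matrix Module Cfsg.Agent.Lib.Helper95 Cfsg.Agent.Lib.Helper97

variable {ι : Type} [Fintype ι] [DecidableEq ι] {F : Type*} [Field F]

theorem e_conj_apply (s g : GL ι F) (i j : ι) (c : F)
    (hg : (g : Matrix ι ι F) = 1 + Matrix.single i j c) (a b : ι) :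
    ((s * g * s⁻¹ : GL ι F) : Matrix ι ι F) a b =
      (1 : Matrix ι ι F) a b +
        (s : Matrix ι ι F) a i * c * ((s⁻¹ : GL ι F) : Matrix ι ι F) j b := by
  rw [Units.val_mul, Units.val_mul, hg, mul_add, add_mul, mul_one, ← Units.val_mul,
    mul_inv_cancel, Units.val_one, Matrix.add_apply]
  congr 1
  rw [Matrix.mul_apply, Finset.sum_eq_single j]
  · rw [Matrix.mul_single_apply_same]
  · intro k _ hk
    rw [Matrix.mul_single_apply_of_ne _ _ _ _ _ hk, zero_mul]
  · intro h; exact absurd (Finset.mem_univ _) h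

theorem e_exists_third (hn : 3 ≤ Fintype.card ι) (i j : ι) : ∃ k : ι, k ≠ i ∧ k ≠ j := by
  by_contra hcon
  push Not at hcon
  have hsub : (Finset.univ : Finset ι) ⊆ {i, j} := by
    intro k _
    by_cases hk : k = i
    · simp [hk]
    · simp [hcon k hk]
  have h1 := Finset.card_le_card hsub
  have h2 : ({i, j} : Finset ι).card ≤ 2 := Finset.card_le_two
  rw [Finset.card_univ] at h1
  omega

/-- a monomial matrix corrected to determinant one by a diagonal entry lies in `X`. -/
theorem e_fix_det_mem {X : Subgroup (GL ι F)} (hX : HasMonoSL X) (m : GL ι F)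
    (hm : IsMono (m : Matrix ι ι F)) (k : ι) :
    m * d1 k (Matrix.GeneralLinearGroup.det m)⁻¹ ∈ X := by
  apply hX
  · rw [Units.val_mul]; exact hm.mul (isMono_d1 _ _)
  · rw [Units.val_mul, Matrix.det_mul, det_d1]
    have : (m : Matrix ι ι F).det = ((Matrix.GeneralLinearGroup.det m : Fˣ) : F) := rfl
    rw [this, Units.mul_inv]

theorem e_scale (hn : 3 ≤ Fintype.card ι) (X : Subgroup (GL ι F)) (hX : HasMonoSL X)
    (i j : ι) (hij : i ≠ j) (c : F) (hc : c ≠ 0) (g : GL ι F)
    (hg : (g : Matrix ι ι F) = 1 + Matrix.single i j c) (hgX : g ∈ X)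
    (c' : F) (g' : GL ι F) (hg' : (g' : Matrix ι ι F) = 1 + Matrix.single i j c') : g' ∈ X := by
  by_cases hc' : c' = 0
  · have : g' = 1 := by
      apply Units.ext; rw [hg', hc']; simp
    rw [this]; exact X.one_mem
  obtain ⟨k, hki, hkj⟩ := e_exists_third hn i j
  set a : Fˣ := Units.mk0 (c' / c) (div_ne_zero hc' hc) with ha
  have hs : (d1 i a * d1 k a⁻¹ : GL ι F) ∈ X := d2_mem hX (Ne.symm hki) a
  have hmem : (d1 i a * d1 k a⁻¹ : GL ι F) * g * (d1 i a * d1 k a⁻¹ : GL ι F)⁻¹ ∈ X :=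
    X.mul_mem (X.mul_mem hs hgX) (X.inv_mem hs)
  have : g' = (d1 i a * d1 k a⁻¹ : GL ι F) * g * (d1 i a * d1 k a⁻¹ : GL ι F)⁻¹ := by
    apply Units.ext
    ext p r
    rw [e_conj_apply _ g i j c hg, hg', Matrix.add_apply]
    congr 1
    rw [_root_.mul_inv_rev, d1_inv, d1_inv, Units.val_mul, Units.val_mul]
    unfold d1
    rw [dg_mul_apply, dg_mul_apply, dg_apply, dg_apply, Matrix.single_apply]
    by_cases hp : p = i
    · subst hp
      by_cases hr : j = r
      · subst hr
        rw [if_pos ⟨rfl, rfl⟩, if_pos rfl, if_pos rfl, Pi.mulSingle_eq_same,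
          Pi.mulSingle_eq_of_ne (Ne.symm hki), Pi.mulSingle_eq_of_ne (Ne.symm hkj),
          Pi.mulSingle_eq_of_ne (Ne.symm hij)]
        simp only [ha, Units.val_mk0, Units.val_one, mul_one]
        field_simp
      · rw [if_neg (fun h => hr h.2), if_neg hr]; simp
    · rw [if_neg (fun h => hp h.1.symm), if_neg hp]; simp
  rw [this]; exact hmem

theorem e_exists_perm (i j i' j' : ι) (hij : i ≠ j) (hij' : i' ≠ j') :
    ∃ σ : Equiv.Perm ι, σ i = i' ∧ σ j = j' := by
  refine ⟨Equiv.swap (Equiv.swap i i' j) j' * Equiv.swap i i', ?_, ?_⟩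
  · rw [Equiv.Perm.mul_apply, Equiv.swap_apply_left]
    apply Equiv.swap_apply_of_ne_of_ne _ hij'
    intro h
    have : Equiv.swap i i' i = Equiv.swap i i' j := by rw [Equiv.swap_apply_left]; exact h
    exact hij ((Equiv.swap i i').injective this)
  · rw [Equiv.Perm.mul_apply, Equiv.swap_apply_left]

theorem sl_le_of_hasElem (hn : 3 ≤ Fintype.card ι) (X : Subgroup (GL ι F)) (hX : HasMonoSL X)
    (h : HasElem X) : Cfsg.Geo.specialLinear ι F ≤ X := by
  obtain ⟨i, j, c, g, hij, hc, hg, hgX⟩ := h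
  have : Nontrivial ι := by
    apply Fintype.one_lt_card_iff_nontrivial.mp; omega
  apply specialLinear_le_of_elementary
  intro i' j' hij' c' g' hg'
  obtain ⟨σ, hσi, hσj⟩ := e_exists_perm i j i' j' hij hij'
  obtain ⟨k, hki, hkj⟩ := e_exists_third hn i j
  -- the element `1 + single i j c'`
  have h0 : (Pi.single j c' : ι → F) ⬝ᵥ (Pi.single i 1 : ι → F) = 0 := by
    rw [dotProduct_single]; simp [Pi.single_eq_of_ne hij]
  have hg0 : ((tv (Pi.single i 1) (Pi.single j c') h0 : GL ι F) : Matrix ι ι F)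
      = 1 + Matrix.single i j c' := by
    show 1 + vecMulVec (Pi.single i 1) (Pi.single j c') = _
    congr 1
    ext p r
    rw [vecMulVec_apply, Matrix.single_apply, Pi.single_apply, Pi.single_apply]
    by_cases hp : p = i
    · by_cases hr : r = j
      · rw [if_pos hp, if_pos hr, if_pos ⟨hp.symm, hr.symm⟩, one_mul]
      · rw [if_neg hr, if_neg (c := i = p ∧ j = r) (fun h => hr h.2.symm), mul_zero]
    · rw [if_neg hp, if_neg (c := i = p ∧ j = r) (fun h => hp h.1.symm), zero_mul]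
  have hg0X := e_scale hn X hX i j hij c hc g hg hgX c' _ hg0
  set g0 : GL ι F := tv (Pi.single i 1) (Pi.single j c') h0 with hg0def
  set ε : Fˣ := (Matrix.GeneralLinearGroup.det (pm σ : GL ι F))⁻¹ with hε
  have hs : (pm σ * d1 k ε : GL ι F) ∈ X := e_fix_det_mem hX _ (isMono_pm σ) k
  have hmem : (pm σ * d1 k ε : GL ι F) * g0 * (pm σ * d1 k ε : GL ι F)⁻¹ ∈ X :=
    X.mul_mem (X.mul_mem hs hg0X) (X.inv_mem hs)
  have : g' = (pm σ * d1 k ε : GL ι F) * g0 * (pm σ * d1 k ε : GL ι F)⁻¹ := by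
    apply Units.ext
    ext p r
    rw [e_conj_apply _ g0 i j c' hg0, hg', Matrix.add_apply]
    congr 1
    rw [_root_.mul_inv_rev, d1_inv, pm_inv, Units.val_mul, Units.val_mul]
    unfold d1
    rw [dg_mul_apply, mul_dg_apply, pm_apply, pm_apply, Matrix.single_apply,
      Pi.mulSingle_eq_of_ne (Ne.symm hki), Pi.mulSingle_eq_of_ne (Ne.symm hkj)]
    by_cases hp : p = i'
    · by_cases hr : r = j'
      · rw [if_pos ⟨hp.symm, hr.symm⟩, if_pos (by rw [hσi, hp]), if_pos (by rw [hr, ← hσj]; simp)]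
        simp
      · rw [if_neg (fun h => hr h.2.symm), if_neg (c := j = σ⁻¹ r)]
        · simp
        · intro h; apply hr; rw [← hσj, h]; simp
    · rw [if_neg (fun h => hp h.1.symm), if_neg (c := p = σ i)]
      · simp
      · rw [hσi]; exact hp
  rw [this]; exact hmem

end Cfsg.Agent.Lib.Helper90.C2
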