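import Cfsg.Agent.Lib.Helper90.C2.Defs

set_option autoImplicit false

namespace Cfsg.Agent.Lib.Helper90.C2

open Matrix Module Cfsg.Agent.Lib.Helper95 Cfsg.Agent.Lib.Helper97

variable {K V : Type*} [Field K] [AddCommGroup V] [Module K V] {t m : ℕ} {D : Fin t → Submodule K V}

theorem dl_comp_proj (π : Proj D) (i : Fin t) (ψ : Dual K V) : Dl D i (ψ ∘ₗ π.P i) :=
  fun k hk x hx => by simp [π.other i k hk x hx]

theorem dl_apply (π : Proj D) {i : Fin t} {χ : Dual K V} (h : Dl D i χ) (x : V) : χ x = χ (π.P i x) := by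
  conv_lhs => rw [← π.sum x]
  rw [map_sum, Finset.sum_eq_single i]
  · intro b _ hb; exact h b hb _ (π.mem b x)
  · simp

theorem sum_comp_proj (π : Proj D) (ψ : Dual K V) : ∑ i, ψ ∘ₗ π.P i = ψ := by
  ext x
  simp only [LinearMap.sum_apply, LinearMap.comp_apply, ← map_sum, π.sum]

private lemma fun_not_mem_span [FiniteDimensional K V] (W : Submodule K V) (h : 2 ≤ finrank K W) (w : V) :
    ∃ x ∈ W, x ∉ Submodule.span K {w} := by
  by_contra hc
  push Not at hc
  have h1 : W ≤ Submodule.span K {w} := hc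
  have h2 := Submodule.finrank_mono h1
  have h3 := finrank_span_le_card (R := K) ({w} : Set V)
  simp at h3
  omega

private lemma fun_finrank_inf [FiniteDimensional K V] (W : Submodule K V) (ψ : Dual K V) :
    finrank K W ≤ finrank K (W ⊓ LinearMap.ker ψ : Submodule K V) + 1 := by
  have h1 := Submodule.finrank_sup_add_finrank_inf_eq W (LinearMap.ker ψ)
  have h2 : finrank K (W ⊔ LinearMap.ker ψ : Submodule K V) ≤ finrank K V := Submodule.finrank_le _
  have h3 : finrank K V ≤ finrank K (LinearMap.ker ψ) + 1 := by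
    by_cases hψ : ψ = 0
    · subst hψ
      rw [LinearMap.ker_zero, finrank_top]
      omega
    · rw [Module.Dual.finrank_ker_add_one_of_ne_zero hψ]
  omega

/-- functionals on a block: separate a vector from a line -/
theorem exists_dl_sep [FiniteDimensional K V] (π : Proj D) (i : Fin t) (w x : V) (hw : w ∈ D i) (hx : x ∈ D i)
    (hxw : x ∉ Submodule.span K {w}) : ∃ χ : Dual K V, Dl D i χ ∧ χ w = 0 ∧ χ x = 1 := by
  obtain ⟨f, hf1, hf2⟩ := Submodule.exists_dual_map_eq_bot_of_notMem hxw inferInstance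
  have hfw : f w = 0 := by
    have : f w ∈ (Submodule.span K {w}).map f := ⟨w, Submodule.mem_span_singleton_self w, rfl⟩
    rw [hf2] at this
    simpa using this
  refine ⟨(f x)⁻¹ • (f ∘ₗ π.P i), ?_, ?_, ?_⟩
  · intro k hk y hy
    simp [π.other i k hk y hy]
  · simp [π.self i w hw, hfw]
  · simp [π.self i x hx, hf1]

/-- a vector of the block outside a given line (dim ≥ 2) -/
theorem exists_not_mem_span [FiniteDimensional K V] (hD : IsDec m D) (hm : 2 ≤ m) (i : Fin t) (w : V) :
    ∃ x ∈ D i, x ∉ Submodule.span K {w} :=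
  fun_not_mem_span (D i) (by rw [hD.finrank_eq]; exact hm) w

/-- a nonzero functional of block type killing a given vector (dim ≥ 2) -/
theorem exists_dl_kill [FiniteDimensional K V] (hD : IsDec m D) (hm : 2 ≤ m) (π : Proj D) (i : Fin t) (w : V)
    (hw : w ∈ D i) : ∃ χ : Dual K V, Dl D i χ ∧ χ w = 0 ∧ χ ≠ 0 := by
  obtain ⟨x, hx, hxw⟩ := exists_not_mem_span hD hm i w
  obtain ⟨χ, h1, h2, h3⟩ := exists_dl_sep π i w x hw hx hxw
  refine ⟨χ, h1, h2, ?_⟩
  rintro rfl
  simp at h3

/-- a nonzero vector of the block in the kernel of a functional (dim ≥ 2) -/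
theorem exists_ker_ne_zero [FiniteDimensional K V] (hD : IsDec m D) (hm : 2 ≤ m) (i : Fin t) (ψ : Dual K V) :
    ∃ x ∈ D i, x ≠ 0 ∧ ψ x = 0 := by
  have h1 := fun_finrank_inf (D i) ψ
  rw [hD.finrank_eq] at h1
  have h2 : (D i ⊓ LinearMap.ker ψ : Submodule K V) ≠ ⊥ := by
    intro h
    rw [h, finrank_bot] at h1
    omega
  obtain ⟨x, hx, hx0⟩ := Submodule.exists_mem_ne_zero_of_ne_bot h2
  exact ⟨x, hx.1, hx0, hx.2⟩

/-- a vector of the block in the kernel of a functional and outside a given line (dim ≥ 3) -/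
theorem exists_ker_not_mem_span [FiniteDimensional K V] (hD : IsDec m D) (hm : 3 ≤ m) (i : Fin t) (ψ : Dual K V)
    (w : V) : ∃ x ∈ D i, ψ x = 0 ∧ x ∉ Submodule.span K {w} := by
  have h1 := fun_finrank_inf (D i) ψ
  rw [hD.finrank_eq] at h1
  obtain ⟨x, hx, hxw⟩ := fun_not_mem_span (D i ⊓ LinearMap.ker ψ) (by omega) w
  exact ⟨x, hx.1, hx.2, hxw⟩

end Cfsg.Agent.Lib.Helper90.C2
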