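import Cfsg.Agent.Lib.Helper90.C2.Basic

set_option autoImplicit false

/-! Rung G1 of the S5634 ladder (written by helper59): a violation of property (S) produces a
transvection `1 + e_l ψ`. -/

namespace Cfsg.Agent.Lib.Helper90.C2

open Matrix Module Cfsg.Agent.Lib.Helper95 Cfsg.Agent.Lib.Helper97

variable {ι : Type} [Fintype ι] [DecidableEq ι] {F : Type*} [Field F]

theorem g1_conj_apply (s g : GL ι F) (i j : ι) (c : F)
    (hg : (g : Matrix ι ι F) = 1 + Matrix.single i j c) (a b : ι) :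
    ((s * g * s⁻¹ : GL ι F) : Matrix ι ι F) a b =
      (1 : Matrix ι ι F) a b +
        (s : Matrix ι ι F) a i * c * ((s⁻¹ : GL ι F) : Matrix ι ι F) j b := by
  rw [Units.val_mul, Units.val_mul, hg, mul_add, add_mul, mul_one, ← Units.val_mul,
    mul_inv_cancel, Units.val_one, Matrix.add_apply]
  congr 1
  rw [Matrix.mul_apply, Finset.sum_eq_single j]
  · rw [Matrix.mul_single_apply_same]
  · intro k _ hk
    rw [Matrix.mul_single_apply_of_ne _ _ _ _ _ hk, zero_mul]
  · intro h; exact absurd (Finset.mem_univ _) h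

theorem g1_d1_eq (k : ι) (c : Fˣ) :
    ((d1 k c : GL ι F) : Matrix ι ι F) = 1 + Matrix.single k k ((c : F) - 1) := by
  ext p r
  rw [d1_apply, Matrix.add_apply, Matrix.one_apply, Matrix.single_apply]
  by_cases hpr : p = r
  · subst hpr
    by_cases hp : p = k
    · subst hp; simp
    · rw [if_pos rfl, if_neg hp, if_pos rfl, if_neg (fun h => hp h.1.symm), add_zero]
  · rw [if_neg hpr, if_neg hpr, if_neg (fun h => hpr (h.1.symm.trans h.2)), add_zero]

theorem g1_exists_unit [Fintype F] (hq : 3 ≤ Fintype.card F) : ∃ c : Fˣ, c ≠ 1 := by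
  classical
  by_contra hcon
  push Not at hcon
  have hsub : (Finset.univ : Finset F) ⊆ {0, 1} := by
    intro x _
    by_cases hx : x = 0
    · simp [hx]
    · have := hcon (Units.mk0 x hx)
      have h2 : x = 1 := by
        have := congrArg Units.val this
        simpa using this
      simp [h2]
  have h1 := Finset.card_le_card hsub
  have h2 : ({0, 1} : Finset F).card ≤ 2 := Finset.card_le_two
  rw [Finset.card_univ] at h1
  omega

theorem hasRow_of_viol [Fintype F] (hq : 3 ≤ Fintype.card F) (Y : Subgroup (GL ι F)) (hY : HasMono Y)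
    (x : GL ι F) (hx : x ∈ Y) (i k : ι) (h1 : (x : Matrix ι ι F) i k ≠ 0)
    (h2 : ((x⁻¹ : GL ι F) : Matrix ι ι F) k i = 0) : HasRow Y := by
  obtain ⟨c, hc⟩ := g1_exists_unit (F := F) hq
  have hc0 : (c : F) ≠ 0 := c.ne_zero
  have hc1 : (c : F) - 1 ≠ 0 := by
    intro h; apply hc; exact Units.ext (sub_eq_zero.mp h)
  obtain ⟨u, hu⟩ : ∃ u : ι → F, u = fun p => (x : Matrix ι ι F) p k := ⟨_, rfl⟩
  obtain ⟨φ, hφ⟩ : ∃ φ : ι → F, φ = fun r => ((x⁻¹ : GL ι F) : Matrix ι ι F) k r := ⟨_, rfl⟩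
  have hφu : ∑ s, φ s * u s = 1 := by
    have := inv_mul_apply x k k
    rw [if_pos rfl] at this
    rw [hφ, hu]; exact this
  have hφi : φ i = 0 := by rw [hφ]; exact h2
  have hui : u i ≠ 0 := by rw [hu]; exact h1
  obtain ⟨h, hh⟩ : ∃ h : GL ι F, h = x * d1 k c * x⁻¹ := ⟨_, rfl⟩
  have hhY : h ∈ Y := by
    rw [hh]; exact Y.mul_mem (Y.mul_mem hx (hY _ (isMono_d1 k c))) (Y.inv_mem hx)
  have hhe : ∀ p r, (h : Matrix ι ι F) p r =
      (1 : Matrix ι ι F) p r + u p * ((c : F) - 1) * φ r := by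
    intro p r
    rw [hh, g1_conj_apply x (d1 k c) k k _ (g1_d1_eq k c), hu, hφ]
  obtain ⟨ψ, hψ⟩ : ∃ ψ : ι → F,
    ψ = fun r => (1 - (c : F)⁻¹) * ((c : F) - 1) * u i * φ r := ⟨_, rfl⟩
  have hψi : ψ i = 0 := by rw [hψ]; simp [hφi]
  have h0 : ψ ⬝ᵥ (Pi.single i 1 : ι → F) = 0 := by
    rw [dotProduct_single, hψi, zero_mul]
  have hκ : (1 - (c : F)⁻¹) * ((c : F) - 1) * u i ≠ 0 := by
    refine mul_ne_zero (mul_ne_zero ?_ hc1) hui
    intro h
    apply hc1
    field_simp at h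
    simpa using h
  have hψ0 : ψ ≠ 0 := by
    obtain ⟨j, hj⟩ := exists_row_ne_zero x⁻¹ k
    intro h
    have := congrFun h j
    rw [hψ] at this
    simp only [Pi.zero_apply] at this
    rcases mul_eq_zero.mp this with h' | h'
    · exact hκ h'
    · rw [hφ] at h'; exact hj h'
  have hsum : ∀ r, ∑ s, ψ s * (h : Matrix ι ι F) s r =
      ((c : F) - 1) * ((c : F) - 1) * u i * φ r := by
    intro r
    simp_rw [hhe, mul_add, Finset.sum_add_distrib]
    have e1 : ∑ s, ψ s * (1 : Matrix ι ι F) s r = ψ r := by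
      rw [Finset.sum_eq_single r]
      · simp
      · intro b _ hb; rw [Matrix.one_apply_ne hb, mul_zero]
      · intro h'; exact absurd (Finset.mem_univ _) h'
    have e2 : ∑ s, ψ s * (u s * ((c : F) - 1) * φ r) =
        (1 - (c : F)⁻¹) * ((c : F) - 1) * u i * (((c : F) - 1) * φ r) * ∑ s, φ s * u s := by
      rw [Finset.mul_sum]
      apply Finset.sum_congr rfl
      intro s _
      rw [hψ]; ring
    rw [e1, e2, hφu, hψ]
    field_simp
    ring
  have hdY : (d1 i c : GL ι F) ∈ Y := hY _ (isMono_d1 i c)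
  refine ⟨i, ψ, d1 i c * h * (d1 i c)⁻¹ * h⁻¹, hψi, hψ0, ?_,
    Y.mul_mem (Y.mul_mem (Y.mul_mem hdY hhY) (Y.inv_mem hdY)) (Y.inv_mem hhY)⟩
  have key : d1 i c * h = tv (Pi.single i 1) ψ h0 * h * d1 i c := by
    apply Units.ext
    ext p r
    rw [Units.val_mul, Units.val_mul, Units.val_mul]
    unfold d1
    rw [dg_mul_apply, mul_dg_apply]
    show _ = ((1 + vecMulVec (Pi.single i 1) ψ) * (h : Matrix ι ι F)) p r * _
    rw [add_mul, one_mul, Matrix.add_apply, Matrix.mul_apply]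
    simp_rw [vecMulVec_apply, mul_assoc]
    rw [← Finset.mul_sum, hsum, hhe, Pi.single_apply, Matrix.one_apply]
    by_cases hp : p = i
    · subst hp
      by_cases hr : r = p
      · subst hr
        simp [hφi]
      · rw [Pi.mulSingle_eq_same, Pi.mulSingle_eq_of_ne hr, if_neg (Ne.symm hr), if_pos rfl]
        simp only [Units.val_one]
        ring
    · rw [Pi.mulSingle_eq_of_ne hp, if_neg hp]
      by_cases hr : r = i
      · subst hr
        rw [if_neg hp, hφi]; simp
      · rw [Pi.mulSingle_eq_of_ne hr]; simp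
  have : d1 i c * h * (d1 i c)⁻¹ * h⁻¹ = tv (Pi.single i 1) ψ h0 := by
    rw [mul_inv_eq_iff_eq_mul, mul_inv_eq_iff_eq_mul]; exact key
  rw [this]; rfl

end Cfsg.Agent.Lib.Helper90.C2
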