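import Cfsg.Agent.Lib.Helper90.C2.Basic

set_option autoImplicit false

/-! Rung G2 of the S5634 ladder (written by helper59): property (S) implies `Le2`. -/

namespace Cfsg.Agent.Lib.Helper90.C2

open Matrix Module Cfsg.Agent.Lib.Helper95 Cfsg.Agent.Lib.Helper97

variable {ι : Type} [Fintype ι] [DecidableEq ι] {F : Type*} [Field F]

theorem g2_entry (x : GL ι F) (δ : ι → Fˣ) (p r : ι) :
    ((x⁻¹ * dg δ * x : GL ι F) : Matrix ι ι F) p r =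
      ∑ j, (δ j : F) * (((x⁻¹ : GL ι F) : Matrix ι ι F) p j * (x : Matrix ι ι F) j r) := by
  rw [Units.val_mul, Units.val_mul, Matrix.mul_apply]
  apply Finset.sum_congr rfl
  intro j _
  rw [mul_dg_apply]; ring

theorem le2_of_propS (Y : Subgroup (GL ι F)) (hY : HasMono Y) (hS : PropS Y)
    (core : ∀ a b : ι → F, (∀ j, a j = 0 ↔ b j = 0) → ∑ j, a j = 0 → ∑ j, b j = 0 →
      (∀ δ : ι → Fˣ, ∑ j, (δ j : F) * a j = 0 ↔ ∑ j, (((δ j)⁻¹ : Fˣ) : F) * b j = 0) →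
      ∀ j₁ j₂ j₃ : ι, j₁ ≠ j₂ → j₁ ≠ j₃ → j₂ ≠ j₃ → a j₁ ≠ 0 → a j₂ ≠ 0 → a j₃ ≠ 0 → False) :
    Le2 Y := by
  intro x hx i k hik j₁ j₂ j₃ h12 h13 h23 h1 h2 h3
  have hne : ∀ j, ((x : Matrix ι ι F) j i ≠ 0 ∧ (x : Matrix ι ι F) j k ≠ 0) →
      ((x⁻¹ : GL ι F) : Matrix ι ι F) k j * (x : Matrix ι ι F) j i ≠ 0 := by
    intro j hj
    exact mul_ne_zero (fun h => hj.2 ((hS x hx j k).mpr h)) hj.1
  refine core (fun j => ((x⁻¹ : GL ι F) : Matrix ι ι F) k j * (x : Matrix ι ι F) j i)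
    (fun j => ((x⁻¹ : GL ι F) : Matrix ι ι F) i j * (x : Matrix ι ι F) j k) ?_ ?_ ?_ ?_
    j₁ j₂ j₃ h12 h13 h23 (hne _ h1) (hne _ h2) (hne _ h3)
  · intro j
    simp only [mul_eq_zero]
    rw [← hS x hx j k, ← hS x hx j i, or_comm]
  · have := inv_mul_apply x k i
    rw [if_neg (Ne.symm hik)] at this
    exact this
  · have := inv_mul_apply x i k
    rw [if_neg hik] at this
    exact this
  · intro δ
    have hz : x⁻¹ * dg δ * x ∈ Y := Y.mul_mem (Y.mul_mem (Y.inv_mem hx) (hY _ (isMono_dg δ))) hx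
    have h := hS _ hz k i
    have hinv : (x⁻¹ * dg δ * x)⁻¹ = x⁻¹ * dg (fun j => (δ j)⁻¹) * x := by
      rw [← dg_inv]; group
    rw [hinv, g2_entry, g2_entry] at h
    exact h

end Cfsg.Agent.Lib.Helper90.C2
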