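import Mathlib

set_option autoImplicit false

namespace Cfsg.Agent.Lib.Helper90.C2

variable {F : Type*} [Field F]

private def g2cδ {κ : Type*} [DecidableEq κ] (j₁ j₂ j₃ : κ) (X Y Z : Fˣ) : κ → Fˣ :=
  fun k => if k = j₁ then X else if k = j₂ then Y else if k = j₃ then Z else 1

private theorem g2c_inv {κ : Type*} [DecidableEq κ] (j₁ j₂ j₃ : κ) (X Y Z : Fˣ) (k : κ) :
    (g2cδ j₁ j₂ j₃ X Y Z k)⁻¹ = g2cδ j₁ j₂ j₃ X⁻¹ Y⁻¹ Z⁻¹ k := by
  unfold g2cδ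
  split_ifs <;> simp

private theorem g2c_sum {κ : Type*} [Fintype κ] [DecidableEq κ] (a : κ → F) (j₁ j₂ j₃ : κ)
    (h12 : j₁ ≠ j₂) (h13 : j₁ ≠ j₃) (h23 : j₂ ≠ j₃) (X Y Z : Fˣ) :
    ∑ k, (g2cδ j₁ j₂ j₃ X Y Z k : F) * a k =
      ∑ k, a k + ((X : F) - 1) * a j₁ + ((Y : F) - 1) * a j₂ + ((Z : F) - 1) * a j₃ := by
  have h : ∀ k, (g2cδ j₁ j₂ j₃ X Y Z k : F) * a k = a k + (if k = j₁ then ((X : F) - 1) * a j₁ else 0)
      + (if k = j₂ then ((Y : F) - 1) * a j₂ else 0) + (if k = j₃ then ((Z : F) - 1) * a j₃ else 0) := by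
    intro k
    unfold g2cδ
    by_cases k1 : k = j₁
    · subst k1
      simp [h12, h13]
      ring
    · by_cases k2 : k = j₂
      · subst k2
        simp [k1, h23]
        ring
      · by_cases k3 : k = j₃
        · subst k3
          simp [k1, k2]
          ring
        · simp [k1, k2, k3]
  simp only [h, Finset.sum_add_distrib, Finset.sum_ite_eq', Finset.mem_univ, if_true]

omit [Field F] in
private theorem g2c_exists_notMem [Fintype F] (S : Finset F) (h : S.card < Fintype.card F) :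
    ∃ x, x ∉ S := by
  by_contra hcon
  push Not at hcon
  have : S = Finset.univ := Finset.eq_univ_iff_forall.2 hcon
  rw [this, Finset.card_univ] at h
  exact lt_irrefl _ h

private theorem g2c_step1 {κ : Type*} [Fintype κ] [DecidableEq κ] [Fintype F] [DecidableEq F]
    (hq : 5 ≤ Fintype.card F)
    (a b : κ → F) (hsupp : ∀ j, a j = 0 ↔ b j = 0) (ha : ∑ j, a j = 0) (hb : ∑ j, b j = 0)
    (h : ∀ δ : κ → Fˣ, ∑ j, (δ j : F) * a j = 0 ↔ ∑ j, (((δ j)⁻¹ : Fˣ) : F) * b j = 0)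
    (j₁ j₂ j₃ : κ) (h12 : j₁ ≠ j₂) (h13 : j₁ ≠ j₃) (h23 : j₂ ≠ j₃)
    (h1 : a j₁ ≠ 0) (h2 : a j₂ ≠ 0) : a j₂ = - a j₁ ∧ b j₂ = - b j₁ := by
  have hb1 : b j₁ ≠ 0 := fun hh => h1 ((hsupp _).2 hh)
  have key : ∀ X : F, X ≠ 0 → X ≠ 1 → X ≠ 1 + a j₂ / a j₁ →
      (a j₁ + a j₂) * b j₁ = X * a j₁ * (b j₁ + b j₂) := by
    intro X hX0 hX1 hX2
    have hY0 : 1 - (X - 1) * a j₁ / a j₂ ≠ 0 := by
      intro hh
      apply hX2
      field_simp at hh ⊢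
      linear_combination -hh
    obtain ⟨Y, hY⟩ : ∃ Y, Y = 1 - (X - 1) * a j₁ / a j₂ := ⟨_, rfl⟩
    rw [← hY] at hY0
    have hYa : a j₂ * Y = a j₂ - (X - 1) * a j₁ := by
      rw [hY]
      field_simp
    have h3 := (h (g2cδ j₁ j₂ j₃ (Units.mk0 X hX0) (Units.mk0 Y hY0) 1)).1 (by
      rw [g2c_sum a j₁ j₂ j₃ h12 h13 h23, ha]
      simp only [Units.val_mk0, Units.val_one]
      linear_combination hYa)
    simp only [g2c_inv] at h3
    rw [g2c_sum b j₁ j₂ j₃ h12 h13 h23, hb] at h3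
    simp only [Units.val_inv_eq_inv_val, Units.val_mk0, inv_one, Units.val_one] at h3
    have h4 : (1 - X) * Y * b j₁ + (1 - Y) * X * b j₂ = 0 := by
      have : (1 - X) * Y * b j₁ + (1 - Y) * X * b j₂ =
          X * Y * (0 + (X⁻¹ - 1) * b j₁ + (Y⁻¹ - 1) * b j₂ + (1 - 1) * b j₃) := by
        field_simp
        ring
      rw [this, h3, mul_zero]
    have h5 : (X - 1) * ((a j₁ + a j₂) * b j₁ - X * a j₁ * (b j₁ + b j₂)) = 0 := by
      linear_combination (-(a j₂)) * h4 + ((1 - X) * b j₁ - X * b j₂) * hYa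
    rcases mul_eq_zero.1 h5 with h6 | h6
    · exact absurd (sub_eq_zero.1 h6) hX1
    · exact sub_eq_zero.1 h6
  obtain ⟨X₁, hX₁⟩ := g2c_exists_notMem ({0, 1, 1 + a j₂ / a j₁} : Finset F)
    (lt_of_le_of_lt (Finset.card_le_three) (by omega))
  obtain ⟨X₂, hX₂⟩ := g2c_exists_notMem ({0, 1, 1 + a j₂ / a j₁, X₁} : Finset F)
    (lt_of_le_of_lt (Finset.card_le_four) (by omega))
  simp only [Finset.mem_insert, Finset.mem_singleton, not_or] at hX₁ hX₂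
  have k1 := key X₁ hX₁.1 hX₁.2.1 hX₁.2.2
  have k2 := key X₂ hX₂.1 hX₂.2.1 hX₂.2.2.1
  have h7 : (X₂ - X₁) * (a j₁ * (b j₁ + b j₂)) = 0 := by linear_combination k1 - k2
  have h8 : b j₁ + b j₂ = 0 := by
    rcases mul_eq_zero.1 h7 with h9 | h9
    · exact absurd (sub_eq_zero.1 h9) hX₂.2.2.2
    · exact (mul_eq_zero.1 h9).resolve_left h1
  rw [h8, mul_zero] at k1
  have h10 : a j₁ + a j₂ = 0 := (mul_eq_zero.1 k1).resolve_right hb1
  exact ⟨by linear_combination h10, by linear_combination h8⟩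

theorem no_three {κ : Type*} [Fintype κ] [DecidableEq κ] [Fintype F] (hq : 5 ≤ Fintype.card F)
    (a b : κ → F) (hsupp : ∀ j, a j = 0 ↔ b j = 0) (ha : ∑ j, a j = 0) (hb : ∑ j, b j = 0)
    (h : ∀ δ : κ → Fˣ, ∑ j, (δ j : F) * a j = 0 ↔ ∑ j, (((δ j)⁻¹ : Fˣ) : F) * b j = 0)
    (j₁ j₂ j₃ : κ) (h12 : j₁ ≠ j₂) (h13 : j₁ ≠ j₃) (h23 : j₂ ≠ j₃)
    (h1 : a j₁ ≠ 0) (h2 : a j₂ ≠ 0) (h3 : a j₃ ≠ 0) : False := by
  classical
  obtain ⟨a12, b12⟩ := g2c_step1 hq a b hsupp ha hb h j₁ j₂ j₃ h12 h13 h23 h1 h2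
  obtain ⟨a13, b13⟩ := g2c_step1 hq a b hsupp ha hb h j₁ j₃ j₂ h13 h12 h23.symm h1 h3
  obtain ⟨a23, b23⟩ := g2c_step1 hq a b hsupp ha hb h j₂ j₃ j₁ h23 h12.symm h13.symm h2 h3
  have hb1 : b j₁ ≠ 0 := fun hh => h1 ((hsupp _).2 hh)
  have h2F : (2 : F) = 0 := by
    have : 2 * a j₁ = 0 := by linear_combination a13 - a23 + a12
    exact (mul_eq_zero.1 this).resolve_right h1
  obtain ⟨X, hX⟩ := g2c_exists_notMem ({0, 1} : Finset F)
    (lt_of_le_of_lt (Finset.card_le_two) (by omega))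
  obtain ⟨Y, hY⟩ := g2c_exists_notMem ({0, 1, X, X + 1} : Finset F)
    (lt_of_le_of_lt (Finset.card_le_four) (by omega))
  simp only [Finset.mem_insert, Finset.mem_singleton, not_or] at hX hY
  have hZ0 : 1 + X + Y ≠ 0 := by
    intro hh
    apply hY.2.2.2
    linear_combination hh - (X + 1) * h2F
  have h4 := (h (g2cδ j₁ j₂ j₃ (Units.mk0 X hX.1) (Units.mk0 Y hY.1) (Units.mk0 _ hZ0))).1 (by
    rw [g2c_sum a j₁ j₂ j₃ h12 h13 h23, ha, a12, a13]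
    simp only [Units.val_mk0]
    linear_combination (-Y * a j₁) * h2F)
  simp only [g2c_inv] at h4
  rw [g2c_sum b j₁ j₂ j₃ h12 h13 h23, hb, b12, b13] at h4
  simp only [Units.val_inv_eq_inv_val, Units.val_mk0] at h4
  obtain ⟨Z, hZ⟩ : ∃ Z, Z = 1 + X + Y := ⟨_, rfl⟩
  rw [← hZ] at h4 hZ0
  have h5 : b j₁ * (Y * Z - X * Z - X * Y + X * Y * Z) = 0 := by
    have : b j₁ * (Y * Z - X * Z - X * Y + X * Y * Z) =
        X * Y * Z * (0 + (X⁻¹ - 1) * b j₁ + (Y⁻¹ - 1) * -b j₁ + (Z⁻¹ - 1) * -b j₁) := by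
      have := hX.1
      have := hY.1
      field_simp
      ring
    rw [this, h4, mul_zero]
  have h6 := (mul_eq_zero.1 h5).resolve_left hb1
  have h7 : (X - Y) * ((X - 1) * (Y - 1)) = 0 := by
    rw [hZ] at h6
    linear_combination (-1 : F) * h6 + (Y ^ 2 - X ^ 2 + X ^ 2 * Y) * h2F
  rcases mul_eq_zero.1 h7 with h8 | h8
  · exact hY.2.2.1 (sub_eq_zero.1 h8).symm
  · rcases mul_eq_zero.1 h8 with h9 | h9
    · exact hX.2 (sub_eq_zero.1 h9)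
    · exact hY.2.1 (sub_eq_zero.1 h9)

end Cfsg.Agent.Lib.Helper90.C2
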