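import Cfsg.Agent.Lib.Helper90.C2.G1

set_option autoImplicit false

/-! Rung G3 of the S5634 ladder (written by helper59): property (S) and `Le2` force all elements
to be monomial. -/

namespace Cfsg.Agent.Lib.Helper90.C2

open Matrix Module Cfsg.Agent.Lib.Helper95 Cfsg.Agent.Lib.Helper97

variable {ι : Type} [Fintype ι] [DecidableEq ι] {F : Type*} [Field F]

theorem g3_h_apply (x : GL ι F) (k : ι) (c : Fˣ) (a b : ι) :
    ((x * d1 k c * x⁻¹ : GL ι F) : Matrix ι ι F) a b =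
      (1 : Matrix ι ι F) a b +
        (x : Matrix ι ι F) a k * ((c : F) - 1) * ((x⁻¹ : GL ι F) : Matrix ι ι F) k b :=
  g1_conj_apply x (d1 k c) k k _ (g1_d1_eq k c) a b

theorem g3_h_inv (x : GL ι F) (k : ι) (c : Fˣ) :
    (x * d1 k c * x⁻¹)⁻¹ = x * d1 k c⁻¹ * x⁻¹ := by
  rw [← d1_inv]; group

theorem g3_h_mem (Y : Subgroup (GL ι F)) (hY : HasMono Y) (x : GL ι F) (hx : x ∈ Y) (k : ι)
    (c : Fˣ) : x * d1 k c * x⁻¹ ∈ Y :=
  Y.mul_mem (Y.mul_mem hx (hY _ (isMono_d1 k c))) (Y.inv_mem hx)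

theorem g3_diag (Y : Subgroup (GL ι F)) (hY : HasMono Y) (hS : PropS Y) (x : GL ι F) (hx : x ∈ Y)
    (k : ι) (c : Fˣ) (hc2 : (c : F) ≠ -1) (j : ι) :
    ((x * d1 k c * x⁻¹ : GL ι F) : Matrix ι ι F) j j ≠ 0 := by
  intro h
  have h' := (hS _ (g3_h_mem Y hY x hx k c) j j).mp h
  rw [g3_h_inv, g3_h_apply, Matrix.one_apply_eq] at h'
  rw [g3_h_apply, Matrix.one_apply_eq] at h
  apply hc2
  have hc0 : (c : F) ≠ 0 := c.ne_zero
  have e : (c : F) + 1 = c * (1 + (x : Matrix ι ι F) j k * (((c⁻¹ : Fˣ) : F) - 1) *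
      ((x⁻¹ : GL ι F) : Matrix ι ι F) k j) + (1 + (x : Matrix ι ι F) j k * ((c : F) - 1) *
      ((x⁻¹ : GL ι F) : Matrix ι ι F) k j) := by
    rw [Units.val_inv_eq_inv_val]
    field_simp
    ring
  rw [h, h', mul_zero, add_zero] at e
  exact eq_neg_of_add_eq_zero_left e

theorem g3_col (Y : Subgroup (GL ι F)) (hY : HasMono Y) (hS : PropS Y) (h2 : Le2 Y)
    (c : Fˣ) (hc1 : (c : F) ≠ 1) (hc2 : (c : F) ≠ -1)
    (x : GL ι F) (hx : x ∈ Y) (k j₁ j₂ j₃ : ι) (h12 : j₁ ≠ j₂) (h13 : j₁ ≠ j₃) (h23 : j₂ ≠ j₃)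
    (e1 : (x : Matrix ι ι F) j₁ k ≠ 0) (e2 : (x : Matrix ι ι F) j₂ k ≠ 0)
    (e3 : (x : Matrix ι ι F) j₃ k ≠ 0) : False := by
  have hne : ∀ a b, (x : Matrix ι ι F) a k ≠ 0 → (x : Matrix ι ι F) b k ≠ 0 →
      ((x * d1 k c * x⁻¹ : GL ι F) : Matrix ι ι F) a b ≠ 0 := by
    intro a b ha hb
    by_cases hab : a = b
    · subst hab; exact g3_diag Y hY hS x hx k c hc2 a
    · rw [g3_h_apply, Matrix.one_apply_ne hab, zero_add]
      exact mul_ne_zero (mul_ne_zero ha (sub_ne_zero.mpr hc1))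
        (fun h => hb ((hS x hx b k).mpr h))
  exact h2 _ (g3_h_mem Y hY x hx k c) j₁ j₂ h12 j₁ j₂ j₃ h12 h13 h23
    ⟨hne _ _ e1 e1, hne _ _ e1 e2⟩ ⟨hne _ _ e2 e1, hne _ _ e2 e2⟩ ⟨hne _ _ e3 e1, hne _ _ e3 e2⟩

theorem g3_exists_unit [Fintype F] (hq : 5 ≤ Fintype.card F) :
    ∃ c : Fˣ, (c : F) ≠ 1 ∧ (c : F) ≠ -1 := by
  classical
  by_contra hcon
  push Not at hcon
  have hsub : (Finset.univ : Finset F) ⊆ {0, 1, -1} := by
    intro x _
    by_cases hx : x = 0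
    · simp [hx]
    · by_cases hx1 : x = 1
      · simp [hx1]
      · have := hcon (Units.mk0 x hx) hx1
        simp only [Units.val_mk0] at this
        simp [this]
  have h1 := Finset.card_le_card hsub
  have h2 : ({0, 1, -1} : Finset F).card ≤ 3 := Finset.card_le_three
  rw [Finset.card_univ] at h1
  omega

theorem g3_exists_third (hn : 3 ≤ Fintype.card ι) (i j : ι) : ∃ k : ι, k ≠ i ∧ k ≠ j := by
  by_contra hcon
  push Not at hcon
  have hsub : (Finset.univ : Finset ι) ⊆ {i, j} := by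
    intro k _
    by_cases hk : k = i
    · simp [hk]
    · simp [hcon k hk]
  have h1 := Finset.card_le_card hsub
  have h2 : ({i, j} : Finset ι).card ≤ 2 := Finset.card_le_two
  rw [Finset.card_univ] at h1
  omega

theorem isMono_of_propS [Fintype F] (hq : 5 ≤ Fintype.card F) (hn : 3 ≤ Fintype.card ι)
    (Y : Subgroup (GL ι F)) (hY : HasMono Y) (hS : PropS Y) (h2 : Le2 Y)
    (x : GL ι F) (hx : x ∈ Y) : IsMono (x : Matrix ι ι F) := by
  obtain ⟨c, hc1, hc2⟩ := g3_exists_unit (F := F) hq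
  by_contra hnm
  unfold IsMono at hnm
  push Not at hnm
  obtain ⟨k, hk⟩ := hnm
  obtain ⟨p, hp⟩ := exists_col_ne_zero x k
  obtain ⟨r, hrp, hr⟩ := hk p
  obtain ⟨s, hsp, hsr⟩ := g3_exists_third hn p r
  have hsupp : ∀ m, m ≠ p → m ≠ r → (x : Matrix ι ι F) m k = 0 := by
    intro m hmp hmr
    by_contra hm
    exact g3_col Y hY hS h2 c hc1 hc2 x hx k p r m (Ne.symm hrp) (Ne.symm hmp) (Ne.symm hmr)
      hp hr hm
  obtain ⟨h, hh⟩ : ∃ h : GL ι F, h = x * d1 k c * x⁻¹ := ⟨_, rfl⟩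
  have hhY : h ∈ Y := by rw [hh]; exact g3_h_mem Y hY x hx k c
  have hhe : ∀ a b, (h : Matrix ι ι F) a b = (1 : Matrix ι ι F) a b +
      (x : Matrix ι ι F) a k * ((c : F) - 1) * ((x⁻¹ : GL ι F) : Matrix ι ι F) k b := by
    intro a b; rw [hh]; exact g3_h_apply x k c a b
  have hpp : (h : Matrix ι ι F) p p ≠ 0 := by rw [hh]; exact g3_diag Y hY hS x hx k c hc2 p
  have hrp' : (h : Matrix ι ι F) r p ≠ 0 := by
    rw [hhe, Matrix.one_apply_ne hrp, zero_add]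
    exact mul_ne_zero (mul_ne_zero hr (sub_ne_zero.mpr hc1)) (fun h => hp ((hS x hx p k).mpr h))
  -- column `p` of `h` is supported on `{p, r}`
  have hcolp : ∀ m, m ≠ p → m ≠ r → (h : Matrix ι ι F) m p = 0 := by
    intro m hmp hmr
    rw [hhe, Matrix.one_apply_ne hmp, hsupp m hmp hmr]; simp
  -- column `s` of `h` is `e_s`
  have hcols : ∀ a, (h : Matrix ι ι F) a s = (1 : Matrix ι ι F) a s := by
    intro a
    rw [hhe, (hS x hx s k).mp (hsupp s hsp hsr)]; simp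
  obtain ⟨π, hπ⟩ : ∃ π : Equiv.Perm ι, π = Equiv.swap r s := ⟨_, rfl⟩
  have hπY : (pm π : GL ι F) ∈ Y := hY _ (isMono_pm π)
  have hh'Y : h * (pm π * h * (pm π)⁻¹) ∈ Y :=
    Y.mul_mem hhY (Y.mul_mem (Y.mul_mem hπY hhY) (Y.inv_mem hπY))
  have hπinv : π⁻¹ = π := by rw [hπ]; exact Equiv.swap_inv r s
  have hh'e : ∀ a b, ((pm π * h * (pm π)⁻¹ : GL ι F) : Matrix ι ι F) a b =
      (h : Matrix ι ι F) (π a) (π b) := by
    intro a b
    rw [pm_inv, hπinv, Units.val_mul, mul_pm_apply, Units.val_mul]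
    have : a = π (π a) := by rw [hπ]; simp
    conv_lhs => rw [this]
    rw [pm_mul_apply]
  have hπp : π p = p := by
    rw [hπ]; exact Equiv.swap_apply_of_ne_of_ne (Ne.symm hrp) (Ne.symm hsp)
  have hπs : π s = r := by rw [hπ]; exact Equiv.swap_apply_right r s
  have hprod : ∀ a, ((h * (pm π * h * (pm π)⁻¹) : GL ι F) : Matrix ι ι F) a p =
      (h : Matrix ι ι F) a p * (h : Matrix ι ι F) p p +
        (1 : Matrix ι ι F) a s * (h : Matrix ι ι F) r p := by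
    intro a
    rw [Units.val_mul, Matrix.mul_apply]
    simp_rw [hh'e, hπp]
    rw [Finset.sum_eq_add p s (Ne.symm hsp)]
    · rw [hπp, hπs, hcols]
    · intro m _ hm
      rw [hcolp (π m), mul_zero]
      · intro h'; apply hm.1; rw [← hπp] at h'; exact π.injective h'
      · intro h'; apply hm.2; rw [← hπs] at h'; exact π.injective h'
    · intro h'; exact absurd (Finset.mem_univ _) h'
    · intro h'; exact absurd (Finset.mem_univ _) h'
  refine g3_col Y hY hS h2 c hc1 hc2 _ hh'Y p p r s (Ne.symm hrp) (Ne.symm hsp) (Ne.symm hsr)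
    ?_ ?_ ?_
  · rw [hprod, Matrix.one_apply_ne (Ne.symm hsp), zero_mul, add_zero]
    exact mul_ne_zero hpp hpp
  · rw [hprod, Matrix.one_apply_ne (Ne.symm hsr), zero_mul, add_zero]
    exact mul_ne_zero hrp' hpp
  · rw [hprod, Matrix.one_apply_eq, one_mul, hcolp s hsp hsr, zero_mul, zero_add]
    exact hrp'

end Cfsg.Agent.Lib.Helper90.C2
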