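import Cfsg.Agent.Lib.Helper90.C2.Basic

set_option autoImplicit false

/-! Rung ISO of the S5634 ladder (written by helper59): from a transvection `1 + e_l ψ` to an
elementary transvection. -/

namespace Cfsg.Agent.Lib.Helper90.C2

open Matrix Module Cfsg.Agent.Lib.Helper95 Cfsg.Agent.Lib.Helper97

variable {ι : Type} [Fintype ι] [DecidableEq ι] {F : Type*} [Field F]

/-- `X` contains `1 + e_l ψ`. -/
def IsoT (X : Subgroup (GL ι F)) (l : ι) (ψ : ι → F) : Prop :=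
  ∃ g ∈ X, (g : Matrix ι ι F) = 1 + vecMulVec (Pi.single l 1) ψ

theorem iso_step (X : Subgroup (GL ι F)) (l : ι) (ψ : ι → F) (hψ : ψ l = 0)
    (h : IsoT X l ψ) (d : ι → Fˣ) (hd : (dg d : GL ι F) ∈ X) (hdl : d l = 1) :
    IsoT X l (fun j => ψ j * (1 - (((d j)⁻¹ : Fˣ) : F))) := by
  obtain ⟨g, hgX, hg⟩ := h
  refine ⟨g * (dg d * g * (dg d)⁻¹)⁻¹,
    X.mul_mem hgX (X.inv_mem (X.mul_mem (X.mul_mem hd hgX) (X.inv_mem hd))), ?_⟩
  have h0 : (fun j => ψ j * (1 - (((d j)⁻¹ : Fˣ) : F))) ⬝ᵥ (Pi.single l 1 : ι → F) = 0 := by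
    rw [dotProduct_single]; simp [hψ]
  have key : g = tv (Pi.single l 1) (fun j => ψ j * (1 - (((d j)⁻¹ : Fˣ) : F))) h0 *
      (dg d * g * (dg d)⁻¹) := by
    apply Units.ext
    have h1 : ((dg d * g * (dg d)⁻¹ : GL ι F) : Matrix ι ι F) =
        1 + vecMulVec (Pi.single l 1) (fun j => ψ j * (((d j)⁻¹ : Fˣ) : F)) := by
      ext a b
      rw [dg_inv, Units.val_mul, Units.val_mul, mul_dg_apply, dg_mul_apply, hg,
        Matrix.add_apply, Matrix.add_apply, vecMulVec_apply, vecMulVec_apply, Matrix.one_apply,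
        Pi.single_apply]
      by_cases hab : a = b
      · subst hab
        by_cases hal : a = l
        · subst hal; simp [hψ]
        · simp [hal]
      · by_cases hal : a = l
        · subst hal; simp [hab, hdl]
        · simp [hal, hab]
    rw [Units.val_mul, h1, hg]
    show _ = (1 + vecMulVec (Pi.single l 1) (fun j => ψ j * (1 - (((d j)⁻¹ : Fˣ) : F)))) * _
    rw [add_mul, one_mul, mul_add, mul_one, vecMulVec_mul_vecMulVec, h0, add_assoc]
    congr 1
    ext a b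
    simp only [Matrix.add_apply, vecMulVec_apply, zero_smul, Pi.zero_apply, mul_zero, add_zero]
    ring
  have : g * (dg d * g * (dg d)⁻¹)⁻¹ =
      tv (Pi.single l 1) (fun j => ψ j * (1 - (((d j)⁻¹ : Fˣ) : F))) h0 := by
    rw [mul_inv_eq_iff_eq_mul]; exact key
  rw [this]; rfl

theorem iso_exists_unit [Fintype F] (hq : 3 ≤ Fintype.card F) : ∃ c : Fˣ, c ≠ 1 := by
  classical
  by_contra hcon
  push Not at hcon
  have hsub : (Finset.univ : Finset F) ⊆ {0, 1} := by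
    intro x _
    by_cases hx : x = 0
    · simp [hx]
    · have := hcon (Units.mk0 x hx)
      have h2 : x = 1 := by
        have := congrArg Units.val this
        simpa using this
      simp [h2]
  have h1 := Finset.card_le_card hsub
  have h2 : ({0, 1} : Finset F).card ≤ 2 := Finset.card_le_two
  rw [Finset.card_univ] at h1
  omega

theorem iso_exists_two (hn : 4 ≤ Fintype.card ι) (l b : ι) :
    ∃ b' b'' : ι, b' ≠ l ∧ b' ≠ b ∧ b'' ≠ l ∧ b'' ≠ b ∧ b'' ≠ b' := by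
  have h1 : ∃ b', b' ∉ ({l, b} : Finset ι) := by
    by_contra hcon
    push Not at hcon
    have hsub : (Finset.univ : Finset ι) ⊆ {l, b} := fun k _ => hcon k
    have h1 := Finset.card_le_card hsub
    have h2 : ({l, b} : Finset ι).card ≤ 2 := Finset.card_le_two
    rw [Finset.card_univ] at h1
    omega
  obtain ⟨b', hb'⟩ := h1
  have h2 : ∃ b'', b'' ∉ ({l, b, b'} : Finset ι) := by
    by_contra hcon
    push Not at hcon
    have hsub : (Finset.univ : Finset ι) ⊆ {l, b, b'} := fun k _ => hcon k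
    have h1 := Finset.card_le_card hsub
    have h2 : ({l, b, b'} : Finset ι).card ≤ 3 := Finset.card_le_three
    rw [Finset.card_univ] at h1
    omega
  obtain ⟨b'', hb''⟩ := h2
  simp only [Finset.mem_insert, Finset.mem_singleton, not_or] at hb' hb''
  exact ⟨b', b'', hb'.1, hb'.2, hb''.1, hb''.2.1, hb''.2.2⟩

theorem hasElem_of_hasRow [Fintype F] (hq : 3 ≤ Fintype.card F) (hn : 4 ≤ Fintype.card ι)
    (X : Subgroup (GL ι F)) (hX : HasMonoSL X) (h : HasRow X) : HasElem X := by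
  obtain ⟨l, ψ, g, hψl, hψ0, hg, hgX⟩ := h
  obtain ⟨b, hb⟩ : ∃ b, ψ b ≠ 0 := by
    by_contra hcon
    push Not at hcon
    exact hψ0 (funext hcon)
  have hbl : b ≠ l := fun h => hb (h ▸ hψl)
  obtain ⟨c, hc⟩ := iso_exists_unit (F := F) hq
  obtain ⟨b', b'', hb'l, hb'b, hb''l, hb''b, hb''b'⟩ := iso_exists_two hn l b
  have hT : IsoT X l ψ := ⟨g, hgX, hg⟩
  have hd : (dg (Pi.mulSingle b c * Pi.mulSingle b' c⁻¹) : GL ι F) ∈ X := by
    rw [dg_mul]; exact d2_mem hX (Ne.symm hb'b) c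
  have hd' : (dg (Pi.mulSingle b c * Pi.mulSingle b'' c⁻¹) : GL ι F) ∈ X := by
    rw [dg_mul]; exact d2_mem hX (Ne.symm hb''b) c
  have hT1 := iso_step X l ψ hψl hT _ hd (by
    rw [Pi.mul_apply, Pi.mulSingle_eq_of_ne (Ne.symm hbl), Pi.mulSingle_eq_of_ne (Ne.symm hb'l),
      one_mul])
  have hT2 := iso_step X l _ (by simp [hψl]) hT1 _ hd' (by
    rw [Pi.mul_apply, Pi.mulSingle_eq_of_ne (Ne.symm hbl), Pi.mulSingle_eq_of_ne (Ne.symm hb''l),
      one_mul])
  obtain ⟨g2, hg2X, hg2⟩ := hT2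
  have hc1 : (1 - ((c⁻¹ : Fˣ) : F)) ≠ 0 := by
    intro h
    apply hc
    have h1 : ((c⁻¹ : Fˣ) : F) = 1 := (sub_eq_zero.mp h).symm
    have h2 : c⁻¹ = 1 := Units.ext h1
    simpa using h2
  refine ⟨l, b, ψ b * (1 - ((c⁻¹ : Fˣ) : F)) * (1 - ((c⁻¹ : Fˣ) : F)), g2, Ne.symm hbl,
    mul_ne_zero (mul_ne_zero hb hc1) hc1, ?_, hg2X⟩
  rw [hg2]
  congr 1
  ext p r
  rw [vecMulVec_apply, Matrix.single_apply, Pi.single_apply]
  by_cases hp : p = l
  · rw [if_pos hp, one_mul]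
    by_cases hr : r = b
    · rw [if_pos ⟨hp.symm, hr.symm⟩, hr, Pi.mul_apply, Pi.mul_apply, Pi.mulSingle_eq_same,
        Pi.mulSingle_eq_of_ne (Ne.symm hb'b), Pi.mulSingle_eq_of_ne (Ne.symm hb''b), mul_one]
    · rw [if_neg (fun h => hr h.2.symm)]
      by_cases hr' : r = b'
      · have h1 : (Pi.mulSingle b c * Pi.mulSingle b'' c⁻¹ : ι → Fˣ) r = 1 := by
          rw [hr', Pi.mul_apply, Pi.mulSingle_eq_of_ne hb'b,
            Pi.mulSingle_eq_of_ne (Ne.symm hb''b'), one_mul]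
        rw [h1]; simp
      · have h1 : (Pi.mulSingle b c * Pi.mulSingle b' c⁻¹ : ι → Fˣ) r = 1 := by
          rw [Pi.mul_apply, Pi.mulSingle_eq_of_ne hr, Pi.mulSingle_eq_of_ne hr', one_mul]
        rw [h1]; simp
  · rw [if_neg hp, if_neg (fun h => hp h.1.symm), zero_mul]

end Cfsg.Agent.Lib.Helper90.C2
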