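import Cfsg.Agent.Lib.Helper90.C2.Basic

set_option autoImplicit false

/-! Rung LA of the S5634 ladder (written by helper59): the quotient `V / F e_l`. -/

namespace Cfsg.Agent.Lib.Helper90.C2

open Matrix Module Cfsg.Agent.Lib.Helper95 Cfsg.Agent.Lib.Helper97

variable {ι : Type} [Fintype ι] [DecidableEq ι] {F : Type*} [Field F]

theorem ColFix.mul {l : ι} {A B : Matrix ι ι F} (hA : ColFix l A) (hB : ColFix l B) :
    ColFix l (A * B) := by
  intro i hi
  rw [Matrix.mul_apply]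
  apply Finset.sum_eq_zero
  intro k _
  by_cases hk : k = l
  · subst hk; rw [hA i hi, zero_mul]
  · rw [hB k hk, mul_zero]

theorem bar_mul {l : ι} {A : Matrix ι ι F} (hA : ColFix l A) (B : Matrix ι ι F) :
    bar l (A * B) = bar l A * bar l B := by
  ext i j
  show (A * B) i.1 j.1 = _
  rw [Matrix.mul_apply, Matrix.mul_apply, Fintype.sum_eq_add_sum_subtype_ne _ l, hA i.1 i.2,
    zero_mul, zero_add]
  rfl

theorem bar_one (l : ι) : bar l (1 : Matrix ι ι F) = 1 := by
  ext i j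
  show (1 : Matrix ι ι F) i.1 j.1 = _
  rw [Matrix.one_apply, Matrix.one_apply]
  by_cases h : i = j
  · rw [if_pos h, if_pos (congrArg Subtype.val h)]
  · rw [if_neg h, if_neg (fun h' => h (Subtype.ext h'))]

theorem ColFix.inv {l : ι} {x : GL ι F} (hx : ColFix l (x : Matrix ι ι F)) :
    ColFix l ((x⁻¹ : GL ι F) : Matrix ι ι F) := by
  intro i hi
  have h := inv_mul_apply x i l
  rw [if_neg hi, Finset.sum_eq_single l] at h
  · have hne : (x : Matrix ι ι F) l l ≠ 0 := by
      obtain ⟨k, hk⟩ := exists_col_ne_zero x l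
      by_cases hkl : k = l
      · rw [hkl] at hk; exact hk
      · exact absurd (hx k hkl) hk
    exact (mul_eq_zero.mp h).resolve_right hne
  · intro b _ hb
    rw [hx b hb, mul_zero]
  · intro h'; exact absurd (Finset.mem_univ _) h'

theorem exists_barGrp (X : Subgroup (GL ι F)) (l : ι) : ∃ Y : Subgroup (GL {j // j ≠ l} F),
    ∀ y : GL {j // j ≠ l} F, y ∈ Y ↔
      ∃ x ∈ X, ColFix l (x : Matrix ι ι F) ∧
        (y : Matrix {j // j ≠ l} {j // j ≠ l} F) = bar l (x : Matrix ι ι F) := by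
  refine ⟨{ carrier := {y | ∃ x ∈ X, ColFix l (x : Matrix ι ι F) ∧
              (y : Matrix {j // j ≠ l} {j // j ≠ l} F) = bar l (x : Matrix ι ι F)}
            mul_mem' := ?_
            one_mem' := ?_
            inv_mem' := ?_ }, fun y => Iff.rfl⟩
  · rintro y y' ⟨x, hx, hc, hy⟩ ⟨x', hx', hc', hy'⟩
    refine ⟨x * x', X.mul_mem hx hx', ?_, ?_⟩
    · rw [Units.val_mul]; exact hc.mul hc'
    · rw [Units.val_mul, Units.val_mul, bar_mul hc, hy, hy']
  · refine ⟨1, X.one_mem, ?_, ?_⟩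
    · intro i hi; rw [Units.val_one, Matrix.one_apply_ne hi]
    · rw [Units.val_one, Units.val_one, bar_one]
  · rintro y ⟨x, hx, hc, hy⟩
    refine ⟨x⁻¹, X.inv_mem hx, hc.inv, ?_⟩
    have h1 : (y : Matrix {j // j ≠ l} {j // j ≠ l} F) * bar l ((x⁻¹ : GL ι F) : Matrix ι ι F)
        = 1 := by
      rw [hy, ← bar_mul hc, ← Units.val_mul, mul_inv_cancel, Units.val_one, bar_one]
    calc ((y⁻¹ : GL {j // j ≠ l} F) : Matrix {j // j ≠ l} {j // j ≠ l} F)
        = ((y⁻¹ : GL {j // j ≠ l} F) : Matrix {j // j ≠ l} {j // j ≠ l} F) *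
          ((y : Matrix {j // j ≠ l} {j // j ≠ l} F) *
            bar l ((x⁻¹ : GL ι F) : Matrix ι ι F)) := by rw [h1, mul_one]
      _ = bar l ((x⁻¹ : GL ι F) : Matrix ι ι F) := by
          rw [← mul_assoc, ← Units.val_mul, inv_mul_cancel, Units.val_one, one_mul]

end Cfsg.Agent.Lib.Helper90.C2
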