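import Cfsg.Agent.Lib.Helper90.C2.Basic

set_option autoImplicit false

/-! Rung LB of the S5634 ladder (written by helper59): lifting monomial matrices from `V / F e_l`. -/

namespace Cfsg.Agent.Lib.Helper90.C2

open Matrix Module Cfsg.Agent.Lib.Helper95 Cfsg.Agent.Lib.Helper97

variable {ι : Type} [Fintype ι] [DecidableEq ι] {F : Type*} [Field F]

/-- extension of a matrix on the complement of `l` by `1` at `(l,l)`. -/
def lbExt (l : ι) (M : Matrix {j // j ≠ l} {j // j ≠ l} F) : Matrix ι ι F :=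
  fun i j => if hi : i = l then (if j = l then 1 else 0)
    else (if hj : j = l then 0 else M ⟨i, hi⟩ ⟨j, hj⟩)

theorem lbExt_l (l : ι) (M : Matrix {j // j ≠ l} {j // j ≠ l} F) (j : ι) :
    lbExt l M l j = if j = l then 1 else 0 := by
  unfold lbExt; rw [dif_pos rfl]

theorem lbExt_col (l : ι) (M : Matrix {j // j ≠ l} {j // j ≠ l} F) (i : ι) (hi : i ≠ l) :
    lbExt l M i l = 0 := by
  unfold lbExt; rw [dif_neg hi, dif_pos rfl]

theorem lbExt_ne (l : ι) (M : Matrix {j // j ≠ l} {j // j ≠ l} F) (i j : ι) (hi : i ≠ l)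
    (hj : j ≠ l) : lbExt l M i j = M ⟨i, hi⟩ ⟨j, hj⟩ := by
  unfold lbExt; rw [dif_neg hi, dif_neg hj]

theorem lbExt_mul (l : ι) (M N : Matrix {j // j ≠ l} {j // j ≠ l} F) :
    lbExt l M * lbExt l N = lbExt l (M * N) := by
  ext i j
  rw [Matrix.mul_apply, Fintype.sum_eq_add_sum_subtype_ne _ l]
  by_cases hi : i = l
  · subst hi
    rw [lbExt_l, lbExt_l, lbExt_l, if_pos rfl, one_mul, Finset.sum_eq_zero, add_zero]
    intro k _
    rw [lbExt_l, if_neg k.2, zero_mul]
  · rw [lbExt_col l M i hi, zero_mul, zero_add]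
    by_cases hj : j = l
    · subst hj
      rw [lbExt_col _ _ i hi]
      apply Finset.sum_eq_zero
      intro k _
      rw [lbExt_col _ N k.1 k.2, mul_zero]
    · rw [lbExt_ne l _ i j hi hj, Matrix.mul_apply]
      apply Finset.sum_congr rfl
      intro k _
      rw [lbExt_ne l M i k.1 hi k.2, lbExt_ne l N k.1 j k.2 hj]

theorem lbExt_one (l : ι) : lbExt l (1 : Matrix {j // j ≠ l} {j // j ≠ l} F) = 1 := by
  ext i j
  by_cases hi : i = l
  · subst hi
    rw [lbExt_l, Matrix.one_apply]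
    by_cases hj : j = i
    · rw [if_pos hj, if_pos hj.symm]
    · rw [if_neg hj, if_neg (Ne.symm hj)]
  · by_cases hj : j = l
    · subst hj
      rw [lbExt_col _ _ i hi, Matrix.one_apply_ne hi]
    · rw [lbExt_ne l _ i j hi hj, Matrix.one_apply, Matrix.one_apply]
      by_cases h : i = j
      · rw [if_pos h, if_pos (Subtype.ext h)]
      · rw [if_neg h, if_neg (fun h' => h (congrArg Subtype.val h'))]

/-- the lift as an element of `GL`. -/
def lbLift (l : ι) (y : GL {j // j ≠ l} F) : GL ι F where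
  val := lbExt l (y : Matrix {j // j ≠ l} {j // j ≠ l} F)
  inv := lbExt l ((y⁻¹ : GL {j // j ≠ l} F) : Matrix {j // j ≠ l} {j // j ≠ l} F)
  val_inv := by rw [lbExt_mul, ← Units.val_mul, mul_inv_cancel, Units.val_one, lbExt_one]
  inv_val := by rw [lbExt_mul, ← Units.val_mul, inv_mul_cancel, Units.val_one, lbExt_one]

theorem exists_mono_lift (l : ι) (y : GL {j // j ≠ l} F)
    (hy : IsMono (y : Matrix {j // j ≠ l} {j // j ≠ l} F)) :
    ∃ ν : GL ι F, IsMono (ν : Matrix ι ι F) ∧ (ν : Matrix ι ι F).det = 1 ∧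
      ColFix l (ν : Matrix ι ι F) ∧
      bar l (ν : Matrix ι ι F) = (y : Matrix {j // j ≠ l} {j // j ≠ l} F) := by
  have hval : ((lbLift l y : GL ι F) : Matrix ι ι F) =
      lbExt l (y : Matrix {j // j ≠ l} {j // j ≠ l} F) := rfl
  have hm : IsMono ((lbLift l y : GL ι F) : Matrix ι ι F) := by
    intro j
    rw [hval]
    by_cases hj : j = l
    · subst hj
      exact ⟨j, fun i' hi' => lbExt_col _ _ i' hi'⟩
    · obtain ⟨i, hi⟩ := hy ⟨j, hj⟩
      refine ⟨i.1, fun i' hi' => ?_⟩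
      by_cases hil : i' = l
      · subst hil; rw [lbExt_l, if_neg hj]
      · rw [lbExt_ne l _ i' j hil hj]
        exact hi ⟨i', hil⟩ (fun h => hi' (congrArg Subtype.val h))
  refine ⟨lbLift l y * d1 l (Matrix.GeneralLinearGroup.det (lbLift l y))⁻¹, ?_, ?_, ?_, ?_⟩
  · rw [Units.val_mul]; exact hm.mul (isMono_d1 _ _)
  · rw [Units.val_mul, Matrix.det_mul, det_d1]
    have : ((lbLift l y : GL ι F) : Matrix ι ι F).det =
      ((Matrix.GeneralLinearGroup.det (lbLift l y) : Fˣ) : F) := rfl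
    rw [this, Units.mul_inv]
  · intro i hi
    rw [Units.val_mul]
    unfold d1
    rw [mul_dg_apply, hval, lbExt_col _ _ i hi, zero_mul]
  · ext i j
    show ((lbLift l y * d1 l (Matrix.GeneralLinearGroup.det (lbLift l y))⁻¹ : GL ι F) :
      Matrix ι ι F) i.1 j.1 = _
    rw [Units.val_mul]
    unfold d1
    rw [mul_dg_apply, hval, lbExt_ne l _ i.1 j.1 i.2 j.2, Pi.mulSingle_eq_of_ne j.2]
    simp

end Cfsg.Agent.Lib.Helper90.C2
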