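import Cfsg.Agent.Lib.Helper90.C2.Basic

set_option autoImplicit false

/-! Rung LC of the S5634 ladder (written by helper59): elements trivial on `F e_l` and `V / F e_l`. -/

namespace Cfsg.Agent.Lib.Helper90.C2

open Matrix Module Cfsg.Agent.Lib.Helper95 Cfsg.Agent.Lib.Helper97

variable {ι : Type} [Fintype ι] [DecidableEq ι] {F : Type*} [Field F]

theorem row_form (l : ι) (z : GL ι F) (hdet : (z : Matrix ι ι F).det = 1)
    (hcol : ColFix l (z : Matrix ι ι F)) (hbar : bar l (z : Matrix ι ι F) = 1) :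
    ∃ ψ : ι → F, ψ l = 0 ∧ (z : Matrix ι ι F) = 1 + vecMulVec (Pi.single l 1) ψ := by
  have hz : (z : Matrix ι ι F) = 1 + vecMulVec (Pi.single l 1)
      (fun j => (z : Matrix ι ι F) l j - (1 : Matrix ι ι F) l j) := by
    ext i j
    rw [Matrix.add_apply, vecMulVec_apply, Pi.single_apply]
    by_cases hi : i = l
    · subst hi; rw [if_pos rfl]; ring
    · rw [if_neg hi, zero_mul, add_zero]
      by_cases hj : j = l
      · subst hj; rw [hcol i hi, Matrix.one_apply_ne hi]
      · have := congrFun (congrFun hbar ⟨i, hi⟩) ⟨j, hj⟩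
        have h1 : bar l (z : Matrix ι ι F) ⟨i, hi⟩ ⟨j, hj⟩ = (z : Matrix ι ι F) i j := rfl
        rw [h1] at this
        rw [this, Matrix.one_apply, Matrix.one_apply]
        by_cases h : i = j
        · rw [if_pos h, if_pos (Subtype.ext h)]
        · rw [if_neg h, if_neg (fun h' => h (congrArg Subtype.val h'))]
  refine ⟨_, ?_, hz⟩
  have h1 := hdet
  rw [hz, vecMulVec_eq Unit, Matrix.det_one_add_replicateCol_mul_replicateRow,
    dotProduct_single] at h1
  simpa [sub_eq_zero] using h1

end Cfsg.Agent.Lib.Helper90.C2
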