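import Cfsg.Agent.Lib.Helper90.C2.LA
import Cfsg.Agent.Lib.Helper90.C2.LB
import Cfsg.Agent.Lib.Helper90.C2.LC

set_option autoImplicit false

/-! Rung LD of the S5634 ladder (written by helper59): lifting from `V / F e_l`. -/

namespace Cfsg.Agent.Lib.Helper90.C2

open Matrix Module Cfsg.Agent.Lib.Helper95 Cfsg.Agent.Lib.Helper97

variable {ι : Type} [Fintype ι] [DecidableEq ι] {F : Type*} [Field F]

theorem ld_vmv_single (i j : ι) (c : F) :
    vecMulVec (Pi.single i c : ι → F) (Pi.single j 1 : ι → F) = Matrix.single i j c := by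
  ext p r
  rw [vecMulVec_apply, Matrix.single_apply, Pi.single_apply, Pi.single_apply]
  by_cases hp : p = i
  · by_cases hr : r = j
    · rw [if_pos hp, if_pos hr, if_pos ⟨hp.symm, hr.symm⟩, mul_one]
    · rw [if_neg hr, if_neg (c := i = p ∧ j = r) (fun h => hr h.2.symm), mul_zero]
  · rw [if_neg hp, if_neg (c := i = p ∧ j = r) (fun h => hp h.1.symm), zero_mul]

theorem ld_exists_unit [Fintype F] (hq : 3 ≤ Fintype.card F) : ∃ c : Fˣ, c ≠ 1 := by
  classical
  by_contra hcon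
  push Not at hcon
  have hsub : (Finset.univ : Finset F) ⊆ {0, 1} := by
    intro x _
    by_cases hx : x = 0
    · simp [hx]
    · have := hcon (Units.mk0 x hx)
      have h2 : x = 1 := by
        have := congrArg Units.val this
        simpa using this
      simp [h2]
  have h1 := Finset.card_le_card hsub
  have h2 : ({0, 1} : Finset F).card ≤ 2 := Finset.card_le_two
  rw [Finset.card_univ] at h1
  omega

theorem ld_exists_fifth (hn : 5 ≤ Fintype.card ι) (l a b j : ι) :
    ∃ k : ι, k ≠ l ∧ k ≠ a ∧ k ≠ b ∧ k ≠ j := by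
  have h1 : ∃ k, k ∉ ({l, a, b, j} : Finset ι) := by
    by_contra hcon
    push Not at hcon
    have hsub : (Finset.univ : Finset ι) ⊆ {l, a, b, j} := fun k _ => hcon k
    have h1 := Finset.card_le_card hsub
    have h2 : ({l, a, b, j} : Finset ι).card ≤ 4 := Finset.card_le_four
    rw [Finset.card_univ] at h1
    omega
  obtain ⟨k, hk⟩ := h1
  simp only [Finset.mem_insert, Finset.mem_singleton, not_or] at hk
  exact ⟨k, hk.1, hk.2.1, hk.2.2.1, hk.2.2.2⟩

/-- a diagonal matrix trivial at `a`, `b` commutes with `1 + single a b c`. -/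
theorem ld_comm (d : ι → Fˣ) (a b : ι) (c : F) (e : GL ι F)
    (he : (e : Matrix ι ι F) = 1 + Matrix.single a b c) (hda : d a = 1) (hdb : d b = 1) :
    dg d * e = e * dg d := by
  apply Units.ext
  ext p r
  rw [Units.val_mul, Units.val_mul, dg_mul_apply, mul_dg_apply, he, Matrix.add_apply,
    Matrix.one_apply, Matrix.single_apply]
  by_cases hpr : p = r
  · subst hpr; ring
  · rw [if_neg hpr, zero_add]
    by_cases h : a = p ∧ b = r
    · rw [← h.1, ← h.2, hda, hdb]; ring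
    · rw [if_neg h]; ring

/-- conjugating `1 + e_l ψ` by a diagonal matrix. -/
theorem ld_conj (d : ι → Fˣ) (l : ι) (ψ : ι → F) (hψ : ψ l = 0) (z : GL ι F)
    (hz : (z : Matrix ι ι F) = 1 + vecMulVec (Pi.single l 1) ψ)
    (h0 : (fun r => ((d l : F) * (((d r)⁻¹ : Fˣ) : F) - 1) * ψ r) ⬝ᵥ (Pi.single l 1 : ι → F) = 0) :
    dg d * z = z * tv (Pi.single l 1)
      (fun r => ((d l : F) * (((d r)⁻¹ : Fˣ) : F) - 1) * ψ r) h0 * dg d := by
  apply Units.ext
  have h1 : ((z * tv (Pi.single l 1)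
      (fun r => ((d l : F) * (((d r)⁻¹ : Fˣ) : F) - 1) * ψ r) h0 : GL ι F) : Matrix ι ι F) =
      1 + vecMulVec (Pi.single l 1) (fun r => (d l : F) * (((d r)⁻¹ : Fˣ) : F) * ψ r) := by
    rw [Units.val_mul, hz]
    show (1 + vecMulVec (Pi.single l 1) ψ) * (1 + vecMulVec (Pi.single l 1)
      (fun r => ((d l : F) * (((d r)⁻¹ : Fˣ) : F) - 1) * ψ r)) = _
    have h2 : ψ ⬝ᵥ (Pi.single l 1 : ι → F) = 0 := by rw [dotProduct_single, hψ, zero_mul]
    rw [add_mul, one_mul, mul_add, mul_one, vecMulVec_mul_vecMulVec, h2, add_assoc]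
    congr 1
    ext a b
    simp only [Matrix.add_apply, vecMulVec_apply, zero_smul, Pi.zero_apply, mul_zero, add_zero]
    ring
  ext p r
  rw [Units.val_mul, Units.val_mul (z * _), dg_mul_apply, mul_dg_apply, h1, hz, Matrix.add_apply,
    Matrix.add_apply, vecMulVec_apply, vecMulVec_apply, Matrix.one_apply, Pi.single_apply]
  have hdr : (((d r)⁻¹ : Fˣ) : F) * (d r : F) = 1 := Units.inv_mul (d r)
  by_cases hpr : p = r
  · subst hpr
    by_cases hp : p = l
    · subst hp; rw [hψ]; ring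
    · rw [if_neg hp]; ring
  · rw [if_neg hpr]
    by_cases hp : p = l
    · subst hp
      rw [if_pos rfl]
      calc (d p : F) * (0 + 1 * ψ r) = (d p : F) * ψ r * ((((d r)⁻¹ : Fˣ) : F) * (d r : F)) := by
            rw [hdr]; ring
        _ = _ := by ring
    · rw [if_neg hp]; ring

theorem hasElem_or_hasRow_of_colFix [Fintype F] (hq : 3 ≤ Fintype.card F)
    (hn : 5 ≤ Fintype.card ι)
    (X : Subgroup (GL ι F)) (hX : HasMonoSL X) (hdet : ∀ g ∈ X, (g : Matrix ι ι F).det = 1)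
    (x : GL ι F) (hx : x ∈ X) (hxm : ¬ IsMono (x : Matrix ι ι F)) (l : ι)
    (hcol : ColFix l (x : Matrix ι ι F))
    (GLthm : ∀ Y : Subgroup (GL {j // j ≠ l} F), HasMono Y → ∀ y ∈ Y,
      ¬ IsMono (y : Matrix {j // j ≠ l} {j // j ≠ l} F) → HasElem Y) :
    HasElem X ∨ HasRow X := by
  obtain ⟨Y, hYmem⟩ := exists_barGrp X l
  have hYmono : HasMono Y := by
    intro y hy
    obtain ⟨ν, hνm, hνd, hνc, hνb⟩ := exists_mono_lift l y hy
    exact (hYmem y).mpr ⟨ν, hX ν hνm hνd, hνc, hνb.symm⟩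
  obtain ⟨y, hy⟩ : ∃ y : GL {j // j ≠ l} F,
      (y : Matrix {j // j ≠ l} {j // j ≠ l} F) = bar l (x : Matrix ι ι F) := by
    refine ⟨⟨bar l (x : Matrix ι ι F), bar l ((x⁻¹ : GL ι F) : Matrix ι ι F), ?_, ?_⟩, rfl⟩
    · rw [← bar_mul hcol, ← Units.val_mul, mul_inv_cancel, Units.val_one, bar_one]
    · rw [← bar_mul hcol.inv, ← Units.val_mul, inv_mul_cancel, Units.val_one, bar_one]
  have hyY : y ∈ Y := (hYmem y).mpr ⟨x, hx, hcol, hy⟩
  by_cases hym : IsMono (y : Matrix {j // j ≠ l} {j // j ≠ l} F)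
  · right
    obtain ⟨ν, hνm, hνd, hνc, hνb⟩ := exists_mono_lift l y hym
    have hνX := hX ν hνm hνd
    have hzX : x * ν⁻¹ ∈ X := X.mul_mem hx (X.inv_mem hνX)
    have hzc : ColFix l ((x * ν⁻¹ : GL ι F) : Matrix ι ι F) := by
      rw [Units.val_mul]; exact hcol.mul hνc.inv
    have hzb : bar l ((x * ν⁻¹ : GL ι F) : Matrix ι ι F) = 1 := by
      rw [Units.val_mul, bar_mul hcol, ← hy, ← hνb, ← bar_mul hνc, ← Units.val_mul,
        mul_inv_cancel, Units.val_one, bar_one]
    obtain ⟨ψ, hψl, hψ⟩ := row_form l _ (hdet _ hzX) hzc hzb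
    refine ⟨l, ψ, x * ν⁻¹, hψl, ?_, hψ, hzX⟩
    intro h0
    apply hxm
    have h1 : x * ν⁻¹ = 1 := by
      apply Units.ext; rw [hψ, h0]; simp
    have h2 : x = ν := by rwa [mul_inv_eq_one] at h1
    rw [h2]; exact hνm
  · obtain ⟨a, b, c, g, hab, hc, hg, hgY⟩ := GLthm Y hYmono y hyY hym
    obtain ⟨y', hy'X, hy'c, hy'b⟩ := (hYmem g).mp hgY
    have hab' : a.1 ≠ b.1 := fun h => hab (Subtype.ext h)
    have h0 : (Pi.single b.1 1 : ι → F) ⬝ᵥ (Pi.single a.1 c : ι → F) = 0 := by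
      rw [dotProduct_single, Pi.single_eq_of_ne hab', zero_mul]
    obtain ⟨e, he⟩ : ∃ e : GL ι F, e = tv (Pi.single a.1 c) (Pi.single b.1 1) h0 := ⟨_, rfl⟩
    have hee : (e : Matrix ι ι F) = 1 + Matrix.single a.1 b.1 c := by
      rw [he, ← ld_vmv_single]; rfl
    have hedet : (e : Matrix ι ι F).det = 1 := by rw [he]; exact det_tv _ _ _
    have hec : ColFix l (e : Matrix ι ι F) := by
      intro i hi
      rw [hee, Matrix.add_apply, Matrix.one_apply_ne hi, Matrix.single_apply,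
        if_neg (fun h => b.2 h.2), add_zero]
    have heb : bar l (e : Matrix ι ι F) = (g : Matrix {j // j ≠ l} {j // j ≠ l} F) := by
      rw [hg, hee]
      ext p r
      show (1 + Matrix.single a.1 b.1 c : Matrix ι ι F) p.1 r.1 = _
      rw [Matrix.add_apply, Matrix.add_apply, Matrix.one_apply, Matrix.one_apply,
        Matrix.single_apply, Matrix.single_apply]
      congr 1
      · by_cases h : p = r
        · rw [if_pos h, if_pos (congrArg Subtype.val h)]
        · rw [if_neg h, if_neg (fun h' => h (Subtype.ext h'))]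
      · by_cases h : a = p ∧ b = r
        · rw [if_pos h, if_pos ⟨congrArg Subtype.val h.1, congrArg Subtype.val h.2⟩]
        · rw [if_neg h, if_neg (fun h' => h ⟨Subtype.ext h'.1, Subtype.ext h'.2⟩)]
    obtain ⟨z, hz⟩ : ∃ z : GL ι F, z = e⁻¹ * y' := ⟨_, rfl⟩
    have hy'z : y' = e * z := by rw [hz]; group
    have hzdet : (z : Matrix ι ι F).det = 1 := by
      have h1 := hdet y' hy'X
      rw [hy'z, Units.val_mul, Matrix.det_mul, hedet, one_mul] at h1
      exact h1
    have hzc : ColFix l (z : Matrix ι ι F) := by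
      rw [hz, Units.val_mul]; exact hec.inv.mul hy'c
    have hzb : bar l (z : Matrix ι ι F) = 1 := by
      rw [hz, Units.val_mul, bar_mul hec.inv, ← hy'b, ← heb, ← bar_mul hec.inv, ← Units.val_mul,
        inv_mul_cancel, Units.val_one, bar_one]
    obtain ⟨ψ, hψl, hψ⟩ := row_form l z hzdet hzc hzb
    by_cases hψ0 : ψ = 0
    · left
      have h1 : z = 1 := by
        apply Units.ext; rw [hψ, hψ0]; simp
      rw [h1, mul_one] at hy'z
      exact ⟨a.1, b.1, c, y', hab', hc, by rw [hy'z]; exact hee, hy'X⟩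
    · right
      obtain ⟨j, hj⟩ : ∃ j, ψ j ≠ 0 := by
        by_contra hcon
        push Not at hcon
        exact hψ0 (funext hcon)
      have hjl : j ≠ l := fun h => hj (h ▸ hψl)
      obtain ⟨k, hkl, hka, hkb, hkj⟩ := ld_exists_fifth hn l a.1 b.1 j
      obtain ⟨c', hc'⟩ := ld_exists_unit (F := F) hq
      obtain ⟨d, hd⟩ : ∃ d : ι → Fˣ, d = Pi.mulSingle l c' * Pi.mulSingle k c'⁻¹ := ⟨_, rfl⟩
      have hdX : (dg d : GL ι F) ∈ X := by
        rw [hd, dg_mul]; exact d2_mem hX (Ne.symm hkl) c'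
      have hdl : d l = c' := by
        rw [hd, Pi.mul_apply, Pi.mulSingle_eq_same, Pi.mulSingle_eq_of_ne (Ne.symm hkl), mul_one]
      have hda : d a.1 = 1 := by
        rw [hd, Pi.mul_apply, Pi.mulSingle_eq_of_ne a.2, Pi.mulSingle_eq_of_ne (Ne.symm hka),
          mul_one]
      have hdb : d b.1 = 1 := by
        rw [hd, Pi.mul_apply, Pi.mulSingle_eq_of_ne b.2, Pi.mulSingle_eq_of_ne (Ne.symm hkb),
          mul_one]
      have hdj : d j = 1 := by
        rw [hd, Pi.mul_apply, Pi.mulSingle_eq_of_ne hjl, Pi.mulSingle_eq_of_ne (Ne.symm hkj),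
          mul_one]
      have h0' : (fun r => ((d l : F) * (((d r)⁻¹ : Fˣ) : F) - 1) * ψ r) ⬝ᵥ
          (Pi.single l 1 : ι → F) = 0 := by
        rw [dotProduct_single, hψl]; simp
      have key1 := ld_comm d a.1 b.1 c e hee hda hdb
      have key2 := ld_conj d l ψ hψl z hψ h0'
      have hw : y'⁻¹ * (dg d * y' * (dg d)⁻¹) = tv (Pi.single l 1)
          (fun r => ((d l : F) * (((d r)⁻¹ : Fˣ) : F) - 1) * ψ r) h0' := by
        rw [inv_mul_eq_iff_eq_mul, mul_inv_eq_iff_eq_mul, hy'z, ← mul_assoc, key1, mul_assoc,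
          key2]
        simp only [mul_assoc]
      refine ⟨l, _, y'⁻¹ * (dg d * y' * (dg d)⁻¹), ?_, ?_, by rw [hw]; rfl,
        X.mul_mem (X.inv_mem hy'X) (X.mul_mem (X.mul_mem hdX hy'X) (X.inv_mem hdX))⟩
      · simp only [hψl, mul_zero]
      · intro h
        have h1 := congrFun h j
        simp only [Pi.zero_apply, hdl, hdj, inv_one, Units.val_one, mul_one] at h1
        rcases mul_eq_zero.mp h1 with h2 | h2
        · exact hc' (Units.ext (sub_eq_zero.mp h2))
        · exact hj h2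

end Cfsg.Agent.Lib.Helper90.C2
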