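import Cfsg.Agent.Lib.Helper90.C2.E

set_option autoImplicit false

/-! Rung NORM of the S5634 ladder (written by helper59): normalising a weight-one column. -/

namespace Cfsg.Agent.Lib.Helper90.C2

open Matrix Module Cfsg.Agent.Lib.Helper95 Cfsg.Agent.Lib.Helper97

variable {ι : Type} [Fintype ι] [DecidableEq ι] {F : Type*} [Field F]

theorem exists_colFix_of_hasW1 (X : Subgroup (GL ι F)) (hX : HasMonoSL X) (h : HasW1 X) :
    ∃ x ∈ X, ¬ IsMono (x : Matrix ι ι F) ∧ ∃ l, ColFix l (x : Matrix ι ι F) := by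
  obtain ⟨x, hx, hxm, l, l', hl⟩ := h
  obtain ⟨s, hs⟩ : ∃ s : GL ι F, s = pm (Equiv.swap l l') *
    d1 l (Matrix.GeneralLinearGroup.det (pm (Equiv.swap l l') : GL ι F))⁻¹ := ⟨_, rfl⟩
  have hsX : s ∈ X := by rw [hs]; exact e_fix_det_mem hX _ (isMono_pm _) l
  have hsm : IsMono (s : Matrix ι ι F) := by
    rw [hs, Units.val_mul]; exact (isMono_pm _).mul (isMono_d1 _ _)
  refine ⟨x * s, X.mul_mem hx hsX, ?_, l', ?_⟩
  · intro hm
    apply hxm
    have : x = (x * s) * s⁻¹ := by group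
    rw [this, Units.val_mul]
    exact hm.mul hsm.inv
  · intro i hi
    rw [hs, ← mul_assoc, Units.val_mul]
    unfold d1
    rw [mul_dg_apply, Units.val_mul, mul_pm_apply, Equiv.swap_apply_right, hl i hi, zero_mul]

end Cfsg.Agent.Lib.Helper90.C2
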