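import Cfsg.Agent.Lib.Helper90.C2.Basic

set_option autoImplicit false

namespace Cfsg.Agent.Lib.Helper90.C2

open Matrix Module Cfsg.Agent.Lib.Helper95 Cfsg.Agent.Lib.Helper97

variable {ι : Type} [Fintype ι] [DecidableEq ι] {F : Type*} [Field F]

theorem exists_conj_mono {n t : ℕ} (D : Fin t → Submodule F (Fin n → F)) (hD : Cfsg.Geo.IsMDecomposition 1 D) :
    ∃ P : GL (Fin n) F, ∀ g : GL (Fin n) F,
      g ∈ Cfsg.Geo.decompositionStabilizer D ↔ IsMono ((P⁻¹ * g * P : GL (Fin n) F) : Matrix (Fin n) (Fin n) F) := by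
  classical
  have hb : ∀ i, ∃ b : Fin n → F, b ≠ 0 ∧ D i = Submodule.span F {b} := by
    intro i
    obtain ⟨⟨b, hbm⟩, hb0, hb⟩ := finrank_eq_one_iff'.1 (hD.finrank_eq i)
    refine ⟨b, fun h => hb0 (Subtype.ext h), le_antisymm ?_ ?_⟩
    · intro x hx
      obtain ⟨c, hc⟩ := hb ⟨x, hx⟩
      rw [Submodule.mem_span_singleton]
      exact ⟨c, congrArg Subtype.val hc⟩
    · rw [Submodule.span_singleton_le_iff_mem]; exact hbm
  choose b hb0 hbD using hb
  have hli : LinearIndependent F b :=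
    hD.indep.linearIndependent D
      (fun i => by rw [hbD i]; exact Submodule.mem_span_singleton_self _) hb0
  have hsp : ⊤ ≤ Submodule.span F (Set.range b) := by
    rw [Submodule.span_range_eq_iSup, ← hD.iSup_eq_top]
    exact le_of_eq (iSup_congr hbD)
  obtain ⟨B, hB⟩ : ∃ B : Basis (Fin t) F (Fin n → F), ∀ i, B i = b i :=
    ⟨Basis.mk hli hsp, fun i => Basis.mk_apply hli hsp i⟩
  obtain ⟨e⟩ : Nonempty (Fin n ≃ Fin t) := ⟨(Pi.basisFun F (Fin n)).indexEquiv B⟩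
  obtain ⟨B', hB'⟩ : ∃ B' : Basis (Fin n) F (Fin n → F), ∀ j, B' j = b (e j) :=
    ⟨B.reindex e.symm, fun j => by rw [Basis.reindex_apply, Equiv.symm_symm, hB]⟩
  obtain ⟨P, hP⟩ : ∃ P : GL (Fin n) F, ∀ j, (P : Matrix (Fin n) (Fin n) F) *ᵥ Pi.single j 1 = B' j := by
    refine ⟨⟨(Pi.basisFun F (Fin n)).toMatrix B', B'.toMatrix (Pi.basisFun F (Fin n)),
      Basis.toMatrix_mul_toMatrix_flip _ _, Basis.toMatrix_mul_toMatrix_flip _ _⟩, fun j => ?_⟩
    ext i
    simp [Basis.toMatrix_apply]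
  have hPi : ∀ j, ((P⁻¹ : GL (Fin n) F) : Matrix (Fin n) (Fin n) F) *ᵥ B' j = Pi.single j 1 := by
    intro j
    rw [← hP j, Matrix.mulVec_mulVec, ← Units.val_mul, inv_mul_cancel, Units.val_one,
      Matrix.one_mulVec]
  have hDe : ∀ j, D (e j) = Submodule.span F {B' j} := fun j => by rw [hbD, hB']
  -- column `j` of the conjugate
  have hcol : ∀ (g : GL (Fin n) F) (j : Fin n),
      ((P⁻¹ * g * P : GL (Fin n) F) : Matrix (Fin n) (Fin n) F) *ᵥ Pi.single j 1 =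
        ((P⁻¹ : GL (Fin n) F) : Matrix (Fin n) (Fin n) F) *ᵥ ((g : Matrix (Fin n) (Fin n) F) *ᵥ B' j) := by
    intro g j
    rw [Units.val_mul, Units.val_mul, ← Matrix.mulVec_mulVec, hP, ← Matrix.mulVec_mulVec]
  refine ⟨P, fun g => ⟨?_, ?_⟩⟩
  · rintro ⟨σ, hσ⟩ j
    refine ⟨e.symm (σ (e j)), fun i' hi' => ?_⟩
    have h1 : (g : Matrix (Fin n) (Fin n) F) *ᵥ B' j ∈ D (σ (e j)) := by
      rw [← hσ (e j)]
      refine ⟨B' j, ?_, by simp [Matrix.toLin'_apply]⟩
      rw [hDe]; exact Submodule.mem_span_singleton_self _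
    have h2 : D (σ (e j)) = Submodule.span F {B' (e.symm (σ (e j)))} := by
      rw [← hDe, Equiv.apply_symm_apply]
    rw [h2, Submodule.mem_span_singleton] at h1
    obtain ⟨c, hc⟩ := h1
    have h3 := congrFun (hcol g j) i'
    rw [← hc, Matrix.mulVec_smul, hPi] at h3
    simpa [hi'] using h3
  · intro hm
    obtain ⟨τ, hτ⟩ := (isMono_iff_perm _).1 hm
    refine ⟨(e.symm.trans τ).trans e, fun i => ?_⟩
    obtain ⟨j, rfl⟩ := e.surjective i
    have hne : ((P⁻¹ * g * P : GL (Fin n) F) : Matrix (Fin n) (Fin n) F) (τ j) j ≠ 0 := by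
      obtain ⟨k, hk⟩ := exists_col_ne_zero (P⁻¹ * g * P) j
      by_cases hkj : k = τ j
      · rwa [hkj] at hk
      · exact absurd (hτ k j hkj) hk
    have h1 : ((P⁻¹ * g * P : GL (Fin n) F) : Matrix (Fin n) (Fin n) F) *ᵥ Pi.single j 1 =
        ((P⁻¹ * g * P : GL (Fin n) F) : Matrix (Fin n) (Fin n) F) (τ j) j • Pi.single (τ j) 1 := by
      ext i
      rw [Matrix.mulVec_single_one]
      by_cases hi : i = τ j
      · subst hi; simp
      · rw [Matrix.col_apply, hτ i j hi]; simp [hi]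
    have h2 : (g : Matrix (Fin n) (Fin n) F) *ᵥ B' j =
        ((P⁻¹ * g * P : GL (Fin n) F) : Matrix (Fin n) (Fin n) F) (τ j) j • B' (τ j) := by
      rw [← hP (τ j), ← Matrix.mulVec_smul, ← h1, hcol, Matrix.mulVec_mulVec, ← Units.val_mul,
        mul_inv_cancel, Units.val_one, Matrix.one_mulVec]
    rw [hDe, Submodule.map_span, Set.image_singleton, Matrix.toLin'_apply, h2]
    simp only [Equiv.trans_apply, Equiv.symm_apply_apply]
    rw [hDe]
    exact Submodule.span_singleton_smul_eq (IsUnit.mk0 _ hne) _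

end Cfsg.Agent.Lib.Helper90.C2
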