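import Cfsg.Agent.Lib.Helper90.C2.Basic
import Cfsg.Agent.Lib.Helper95.Glue

set_option autoImplicit false

namespace Cfsg.Agent.Lib.Helper90.C2

open Matrix Module Cfsg.Agent.Lib.Helper95 Cfsg.Agent.Lib.Helper97

variable {ι : Type} [Fintype ι] [DecidableEq ι] {F : Type*} [Field F]

private theorem t1b_mem_sl (g : GL ι F) :
    g ∈ Cfsg.Geo.specialLinear ι F ↔ (g : Matrix ι ι F).det = 1 := by
  constructor
  · intro hg
    have h1 : Matrix.GeneralLinearGroup.det g = 1 := hg
    have h2 := congrArg Units.val h1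
    simpa using h2
  · intro hg
    show Matrix.GeneralLinearGroup.det g = 1
    apply Units.ext
    simpa using hg

private theorem t1b_det_conj (P g : GL ι F) :
    ((P * g * P⁻¹ : GL ι F) : Matrix ι ι F).det = (g : Matrix ι ι F).det := by
  have h : (P : Matrix ι ι F).det * ((P⁻¹ : GL ι F) : Matrix ι ι F).det = 1 := by
    rw [← Matrix.det_mul, ← Units.val_mul, mul_inv_cancel, Units.val_one, Matrix.det_one]
  rw [Units.val_mul, Units.val_mul, Matrix.det_mul, Matrix.det_mul]
  calc (P : Matrix ι ι F).det * (g : Matrix ι ι F).det * ((P⁻¹ : GL ι F) : Matrix ι ι F).det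
      = ((P : Matrix ι ι F).det * ((P⁻¹ : GL ι F) : Matrix ι ι F).det) * (g : Matrix ι ι F).det := by
        ring
    _ = _ := by rw [h, one_mul]

theorem maximal_of_conj_mono {n : ℕ} (hn : 2 ≤ n) (S : Subgroup (GL (Fin n) F)) (P : GL (Fin n) F)
    (hP : ∀ g : GL (Fin n) F, g ∈ S ↔ IsMono ((P⁻¹ * g * P : GL (Fin n) F) : Matrix (Fin n) (Fin n) F))
    (core : ∀ X : Subgroup (GL (Fin n) F), HasMonoSL X → (∀ g ∈ X, (g : Matrix (Fin n) (Fin n) F).det = 1) →
      ∀ g ∈ X, ¬ IsMono (g : Matrix (Fin n) (Fin n) F) → Cfsg.Geo.specialLinear (Fin n) F ≤ X) :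
    Cfsg.Geo.IsMaximalIn (Cfsg.Geo.specialLinear (Fin n) F) (S ⊓ Cfsg.Geo.specialLinear (Fin n) F) := by
  classical
  apply isMaximalIn_of inf_le_right
  · obtain ⟨i0, i1, h01⟩ : ∃ i0 i1 : Fin n, i0 ≠ i1 :=
      ⟨⟨0, by omega⟩, ⟨1, by omega⟩, by simp [Fin.ext_iff]⟩
    have hz : (Pi.single i1 1 : Fin n → F) ⬝ᵥ (Pi.single i0 1 : Fin n → F) = 0 := by
      simp [h01]
    refine ⟨P * tv (Pi.single i0 1) (Pi.single i1 1) hz * P⁻¹, ?_, ?_⟩
    · rw [t1b_mem_sl, t1b_det_conj, det_tv]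
    · intro h
      have h1 := (hP _).1 h.1
      have h2 : P⁻¹ * (P * tv (Pi.single i0 1) (Pi.single i1 1) hz * P⁻¹) * P =
          tv (Pi.single i0 1) (Pi.single i1 1) hz := by group
      rw [h2] at h1
      obtain ⟨i, hi⟩ := h1 i1
      have e0 : ((tv (Pi.single i0 1) (Pi.single i1 1) hz : GL (Fin n) F) :
          Matrix (Fin n) (Fin n) F) i0 i1 = 1 := by
        simp [tv, vecMulVec_apply, h01]
      have e1 : ((tv (Pi.single i0 1) (Pi.single i1 1) hz : GL (Fin n) F) :
          Matrix (Fin n) (Fin n) F) i1 i1 = 1 := by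
        simp [tv, vecMulVec_apply, h01.symm]
      by_cases hi0 : i0 = i
      · have := hi i1 (by rw [← hi0]; exact h01.symm)
        rw [e1] at this
        exact one_ne_zero this
      · have := hi i0 hi0
        rw [e0] at this
        exact one_ne_zero this
  · intro M hHM hMS g hg hgH
    have hX : ∀ x, x ∈ M.comap (MulAut.conj P).toMonoidHom ↔ P * x * P⁻¹ ∈ M := by
      intro x
      rw [Subgroup.mem_comap]
      simp [MulAut.conj_apply]
    have hsl := core (M.comap (MulAut.conj P).toMonoidHom) ?_ ?_ (P⁻¹ * g * P) ?_ ?_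
    · intro y hy
      have h1 : P⁻¹ * y * P ∈ Cfsg.Geo.specialLinear (Fin n) F := by
        rw [t1b_mem_sl] at hy ⊢
        have := t1b_det_conj P⁻¹ y
        rw [inv_inv] at this
        rw [this, hy]
      have h2 := (hX _).1 (hsl h1)
      have h3 : P * (P⁻¹ * y * P) * P⁻¹ = y := by group
      rwa [h3] at h2
    · intro x hxm hxd
      rw [hX]
      apply hHM
      refine Subgroup.mem_inf.2 ⟨?_, ?_⟩
      · rw [hP]
        have h3 : P⁻¹ * (P * x * P⁻¹) * P = x := by group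
        rw [h3]; exact hxm
      · rw [t1b_mem_sl, t1b_det_conj, hxd]
    · intro x hx
      have := hMS ((hX x).1 hx)
      rwa [t1b_mem_sl, t1b_det_conj] at this
    · rw [hX]
      have h3 : P * (P⁻¹ * g * P) * P⁻¹ = g := by group
      rw [h3]; exact hg
    · intro hm
      exact hgH (Subgroup.mem_inf.2 ⟨(hP g).2 hm, hMS hg⟩)

end Cfsg.Agent.Lib.Helper90.C2
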