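import Cfsg.Agent.Lib.Helper90.C2.Basic
import Cfsg.Agent.Lib.Helper90.C2.E
import Cfsg.Agent.Lib.Helper90.C2.ISO
import Cfsg.Agent.Lib.Helper90.C2.G1
import Cfsg.Agent.Lib.Helper90.C2.G2C
import Cfsg.Agent.Lib.Helper90.C2.G2
import Cfsg.Agent.Lib.Helper90.C2.G3
import Cfsg.Agent.Lib.Helper90.C2.LA
import Cfsg.Agent.Lib.Helper90.C2.LB
import Cfsg.Agent.Lib.Helper90.C2.LC
import Cfsg.Agent.Lib.Helper90.C2.LD
import Cfsg.Agent.Lib.Helper90.C2.NORM
import Cfsg.Agent.Lib.Helper90.C2.A1C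
import Cfsg.Agent.Lib.Helper90.C2.A1
import Cfsg.Agent.Lib.Helper90.C2.A2A
import Cfsg.Agent.Lib.Helper90.C2.A2B
import Cfsg.Agent.Lib.Helper90.C2.A2
import Cfsg.Agent.Lib.Helper90.C2.A3
import Cfsg.Agent.Lib.Helper90.C2.T1A
import Cfsg.Agent.Lib.Helper90.C2.T1B

set_option autoImplicit false

namespace Cfsg.Agent.Lib.Helper90.C2

open Matrix Module Cfsg.Agent.Lib.Helper95 Cfsg.Agent.Lib.Helper97

variable {ι : Type} [Fintype ι] [DecidableEq ι] {F : Type*} [Field F]

/-- Overgroups of the full monomial group in `GL`. -/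
theorem hasElem_of_not_mono [Fintype F] (hq : 5 ≤ Fintype.card F) (hn : 4 ≤ Fintype.card ι)
    (Y : Subgroup (GL ι F)) (hY : HasMono Y) (y : GL ι F) (hyY : y ∈ Y)
    (hy : ¬ IsMono (y : Matrix ι ι F)) : HasElem Y := by
  by_cases hS : PropS Y
  · exact absurd (isMono_of_propS hq (by omega) Y hY hS
      (le2_of_propS Y hY hS (fun a b h1 h2 h3 h4 => no_three hq a b h1 h2 h3 h4)) y hyY) hy
  · unfold PropS at hS
    push Not at hS
    obtain ⟨x, hx, i, k, h⟩ := hS
    have hr : HasRow Y := by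
      rcases h with ⟨h1, h2⟩ | ⟨h1, h2⟩
      · exact hasRow_of_viol (by omega) Y hY x⁻¹ (Y.inv_mem hx) k i h2 (by simpa using h1)
      · exact hasRow_of_viol (by omega) Y hY x hx i k h1 h2
    exact hasElem_of_hasRow (by omega) hn Y hY.sl hr

/-- Overgroups of the monomial group in `SL`. -/
theorem sl_le_of_not_mono [Fintype F] (hq : 5 ≤ Fintype.card F) (hn : 5 ≤ Fintype.card ι)
    (X : Subgroup (GL ι F)) (hX : HasMonoSL X) (hdet : ∀ g ∈ X, (g : Matrix ι ι F).det = 1)
    (g : GL ι F) (hg : g ∈ X) (hgm : ¬ IsMono (g : Matrix ι ι F)) :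
    Cfsg.Geo.specialLinear ι F ≤ X := by
  apply sl_le_of_hasElem (by omega) X hX
  by_cases hW : HasW1 X
  · obtain ⟨x, hx, hxm, l, hl⟩ := exists_colFix_of_hasW1 X hX hW
    have hκ : 4 ≤ Fintype.card {j // j ≠ l} := by
      rw [Fintype.card_subtype_compl, Fintype.card_subtype_eq]; omega
    rcases hasElem_or_hasRow_of_colFix (by omega) (by omega) X hX hdet x hx hxm l hl
      (fun Y hY y hy hym => hasElem_of_not_mono hq hκ Y hY y hy hym) with h | h
    · exact h
    · exact hasElem_of_hasRow (by omega) (by omega) X hX h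
  · exfalso
    obtain ⟨N, Φ, hN, hΦ⟩ := exists_permHom (ι := ι) (F := F)
    refine false_of_one_zero hq (by omega) X hX ?_ g hg hgm
    intro x hx hxm j
    have hex : ∃ i, (x : Matrix ι ι F) i j = 0 := by
      by_contra hne
      push Not at hne
      exact hW (hasW1_of_full (by omega) X hX N Φ hN hΦ
        (fun Ψ j hj => alt_hom_trivial (by omega) Ψ j hj) x hx hxm j hne)
    obtain ⟨i, hi⟩ := hex
    refine ⟨i, hi, fun i' hi' => ?_⟩
    by_contra hne
    exact hW (hasW1_of_two_zeros (by omega) X hX (fun g a b hab h j => col_dichotomy hq g a b hab h j)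
      x hx hxm j i' i hne hi' hi)

/-- The case `m = 1` of S5634. -/
theorem maximal_one [Fintype F] (hq : 5 ≤ Fintype.card F) {n t : ℕ} (hn : 5 ≤ n)
    (D : Fin t → Submodule F (Fin n → F)) (hD : Cfsg.Geo.IsMDecomposition 1 D) :
    Cfsg.Geo.IsMaximalIn (Cfsg.Geo.specialLinear (Fin n) F)
      (Cfsg.Geo.decompositionStabilizer D ⊓ Cfsg.Geo.specialLinear (Fin n) F) := by
  obtain ⟨P, hP⟩ := exists_conj_mono D hD
  exact maximal_of_conj_mono (by omega) _ P hP
    (fun X hX hdet g hg hgm => sl_le_of_not_mono hq (by simpa using hn) X hX hdet g hg hgm)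

end Cfsg.Agent.Lib.Helper90.C2
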