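import Cfsg.Agent.Lib.Helper90.C2.PROP
import Cfsg.Agent.Lib.Helper90.C2.DEC

set_option autoImplicit false

namespace Cfsg.Agent.Lib.Helper90.C2

open Matrix Module Cfsg.Agent.Lib.Helper95 Cfsg.Agent.Lib.Helper97

variable {K V : Type*} [Field K] [AddCommGroup V] [Module K V] {t m : ℕ} {D : Fin t → Submodule K V}

/-- an adapted basis -/
theorem exists_adapted_basis [FiniteDimensional K V] (hD : IsDec m D) :
    ∃ b : Basis (Σ _ : Fin t, Fin m) K V, ∀ i, D i = Submodule.span K (Set.range fun a => b ⟨i, a⟩) := by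
  classical
  have hint : DirectSum.IsInternal D :=
    DirectSum.isInternal_submodule_of_iSupIndep_of_iSup_eq_top hD.indep hD.iSup_eq_top
  let v : ∀ i, Basis (Fin m) K (D i) := fun i => Module.finBasisOfFinrankEq K (D i) (hD.finrank_eq i)
  refine ⟨hint.collectedBasis v, fun i => ?_⟩
  have h1 : (fun a => hint.collectedBasis v ⟨i, a⟩) = (D i).subtype ∘ (v i) := by
    funext a
    simp [DirectSum.IsInternal.collectedBasis_coe]
  rw [h1, Set.range_comp, ← Submodule.map_span, (v i).span_eq, Submodule.map_subtype_top]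

theorem exists_perm [FiniteDimensional K V] (hD : IsDec m D) (hm : 1 ≤ m)
    (M : Subgroup (V ≃ₗ[K] V)) (hM : HasH D M) (σ : Equiv.Perm (Fin t)) :
    ∃ h ∈ M, ∀ i, (D i).map (h : V →ₗ[K] V) = D (σ i) := by
  classical
  obtain ⟨π⟩ := nonempty_proj hD
  obtain ⟨b, hb⟩ := exists_adapted_basis hD
  let τ : (Σ _ : Fin t, Fin m) ≃ (Σ _ : Fin t, Fin m) :=
    (Equiv.sigmaEquivProd _ _).trans ((σ.prodCongr (Equiv.refl _)).trans (Equiv.sigmaEquivProd _ _).symm)
  have hτ : ∀ i a, τ ⟨i, a⟩ = ⟨σ i, a⟩ := fun i a => rfl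
  let e : V ≃ₗ[K] V := b.equiv b τ
  have he : ∀ i, (D i).map (e : V →ₗ[K] V) = D (σ i) := by
    intro i
    rw [hb i, hb (σ i), Submodule.map_span, ← Set.range_comp]
    congr 2
    funext a
    simp [e, hτ]
  -- the dilation
  have ht := hD.two_le
  let i0 : Fin t := ⟨0, by omega⟩
  obtain ⟨x, hx, hx0⟩ := exists_ne_zero_mem hD hm i0
  obtain ⟨χ, h1, _, h3⟩ := exists_dl_sep π i0 0 x (Submodule.zero_mem _) hx (by simpa using hx0)
  let c : Kˣ := (LinearEquiv.det e)⁻¹
  have hu : IsUnit (1 + (((c : K) - 1) • χ) x) := by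
    simp [h3]
  let δ : V ≃ₗ[K] V := LinearEquiv.dilatransvection hu
  have hδ : ∀ l, (D l).map (δ : V →ₗ[K] V) = D l := by
    intro l
    apply Submodule.eq_of_le_of_finrank_eq
    · rintro _ ⟨y, hy, rfl⟩
      change δ y ∈ D l
      rw [LinearEquiv.dilatransvection.apply]
      refine (D l).add_mem hy ?_
      by_cases hl : l = i0
      · subst hl; exact (D _).smul_mem _ hx
      · simp [h1 l hl y hy]
    · exact LinearEquiv.finrank_map_eq δ (D l)
  have hdet : LinearEquiv.det δ = c := by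
    apply Units.ext
    rw [LinearEquiv.coe_det, LinearEquiv.dilatransvection.coe_toLinearMap, LinearMap.transvection.det]
    simp [h3]
  have hmap : ∀ i, (D i).map ((δ * e : V ≃ₗ[K] V) : V →ₗ[K] V) = D (σ i) := by
    intro i
    have : ((δ * e : V ≃ₗ[K] V) : V →ₗ[K] V) = (δ : V →ₗ[K] V) ∘ₗ (e : V →ₗ[K] V) := rfl
    rw [this, Submodule.map_comp, he, hδ]
  refine ⟨δ * e, hM _ ?_ ⟨σ, hmap⟩, hmap⟩
  change LinearEquiv.det (δ * e) = 1
  rw [map_mul, hdet]
  simp [c]

end Cfsg.Agent.Lib.Helper90.C2
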