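import Cfsg.Agent.Lib.Helper90.C2.PERM

set_option autoImplicit false

namespace Cfsg.Agent.Lib.Helper90.C2

open Matrix Module Cfsg.Agent.Lib.Helper95 Cfsg.Agent.Lib.Helper97

theorem isDec_of_isMDecomposition {F : Type*} [Field F] {n t m : ℕ} {D : Fin t → Submodule F (Fin n → F)}
    (hD : Cfsg.Geo.IsMDecomposition m D) : IsDec m D :=
  ⟨hD.two_le, hD.finrank_eq, hD.indep, hD.iSup_eq_top⟩

theorem mul_eq_of_isMDecomposition {F : Type*} [Field F] {n t m : ℕ} (D : Fin t → Submodule F (Fin n → F))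
    (hD : Cfsg.Geo.IsMDecomposition m D) : t * m = n := by
  obtain ⟨b, -⟩ := exists_adapted_basis (isDec_of_isMDecomposition hD)
  have := Module.finrank_eq_card_basis b
  simpa using this.symm

theorem mem_decompositionStabilizer_iff {F : Type*} [Field F] {n t : ℕ} (D : Fin t → Submodule F (Fin n → F))
    (g : GL (Fin n) F) : g ∈ Cfsg.Geo.decompositionStabilizer D ↔ StabD D (glEquiv g) := by
  have : ((glEquiv g : (Fin n → F) ≃ₗ[F] (Fin n → F)) : (Fin n → F) →ₗ[F] (Fin n → F))
      = Matrix.toLin' (g : Matrix (Fin n) (Fin n) F) := by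
    ext x; simp
  unfold StabD
  rw [this]
  rfl

theorem maximal_of_abstract {F : Type*} [Field F] {n t m : ℕ} (hn : 2 ≤ n) (D : Fin t → Submodule F (Fin n → F))
    (hD : Cfsg.Geo.IsMDecomposition m D)
    (hprop : IsDec m D → ∃ e ∈ slGrp F (Fin n → F), ¬ StabD D e)
    (core : IsDec m D → ∀ M : Subgroup ((Fin n → F) ≃ₗ[F] (Fin n → F)), HasH D M → ∀ g ∈ M, ¬ StabD D g →
      ∀ (f : Dual F (Fin n → F)) (v : Fin n → F) (hfv : f v = 0), LinearEquiv.transvection hfv ∈ M) :
    Cfsg.Geo.IsMaximalIn (Cfsg.Geo.specialLinear (Fin n) F)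
      (Cfsg.Geo.decompositionStabilizer D ⊓ Cfsg.Geo.specialLinear (Fin n) F) := by
  have hD' := isDec_of_isMDecomposition hD
  have : Nontrivial (Fin n) := Fin.nontrivial_iff_two_le.2 hn
  apply isMaximalIn_of inf_le_right
  · obtain ⟨e, he, hes⟩ := hprop hD'
    refine ⟨glEquiv.symm e, ?_, ?_⟩
    · rw [mem_specialLinear_iff', MulEquiv.apply_symm_apply]; exact he
    · intro h
      have := (mem_decompositionStabilizer_iff D _).1 h.1
      rw [MulEquiv.apply_symm_apply] at this
      exact hes this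
  · intro M hHM hMS g hg hgH
    have hgs : ¬ StabD D (glEquiv g) := by
      intro h
      exact hgH ⟨(mem_decompositionStabilizer_iff D g).2 h, hMS hg⟩
    have hH : HasH D (toLinGrp M) := by
      intro e he hes
      rw [mem_toLinGrp]
      apply hHM
      refine Subgroup.mem_inf.2 ⟨?_, ?_⟩
      · rw [mem_decompositionStabilizer_iff, MulEquiv.apply_symm_apply]; exact hes
      · rw [mem_specialLinear_iff', MulEquiv.apply_symm_apply]; exact he
    have hall := core hD' (toLinGrp M) hH (glEquiv g) (glEquiv_mem_toLinGrp.2 hg) hgs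
    have hle := slGrp_le_of_transvections (toLinGrp M) hall
    intro x hx
    rw [mem_specialLinear_iff'] at hx
    exact glEquiv_mem_toLinGrp.1 (hle hx)

end Cfsg.Agent.Lib.Helper90.C2
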