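import Cfsg.Agent.Lib.Helper90.C2.DEC
import Cfsg.Agent.Lib.Helper90.C2.Fun
import Cfsg.Agent.Lib.Helper90.C2.B0
import Cfsg.Agent.Lib.Helper90.C2.B1
import Cfsg.Agent.Lib.Helper90.C2.B2A
import Cfsg.Agent.Lib.Helper90.C2.B23
import Cfsg.Agent.Lib.Helper90.C2.DIL
import Cfsg.Agent.Lib.Helper90.C2.B22
import Cfsg.Agent.Lib.Helper90.C2.B3A
import Cfsg.Agent.Lib.Helper90.C2.PERM
import Cfsg.Agent.Lib.Helper90.C2.B3B
import Cfsg.Agent.Lib.Helper90.C2.B3C
import Cfsg.Agent.Lib.Helper90.C2.PROP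
import Cfsg.Agent.Lib.Helper90.C2.T2

set_option autoImplicit false

namespace Cfsg.Agent.Lib.Helper90.C2

open Matrix Module Cfsg.Agent.Lib.Helper95 Cfsg.Agent.Lib.Helper97

variable {K V : Type*} [Field K] [AddCommGroup V] [Module K V] {t m : ℕ} {D : Fin t → Submodule K V}

/-- Abstract form of the case `m ≥ 2`. -/
theorem transvection_mem_of_not_stabD [FiniteDimensional K V] [Fintype K] (hD : IsDec m D) (hm : 2 ≤ m)
    (h2 : m = 2 → 3 ≤ Fintype.card K ∧ 3 ≤ t)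
    (M : Subgroup (V ≃ₗ[K] V)) (hM : HasH D M) (g : V ≃ₗ[K] V) (hg : g ∈ M) (hgs : ¬ StabD D g)
    (f : Dual K V) (v : V) (hfv : f v = 0) : LinearEquiv.transvection hfv ∈ M := by
  obtain ⟨π⟩ := nonempty_proj hD
  have hB : HasBlock D M := hasBlock_of_hasH M hM
  obtain ⟨u, ψ, hTX, hnb⟩ := exists_nonBlock hD hm π M hB g hg hgs
  have hoff : OffDiag D M := by
    rcases Nat.lt_or_ge 2 m with h3 | h3
    · exact offDiag_of_nonBlock_three hD h3 π M hB
        (fun h i j hij hw hw0 x hx hψ => offDiag_of_center hD hm π M hB h i j hij hw hw0 x hx hψ) hTX hnb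
    · have hm2 : m = 2 := le_antisymm h3 hm
      subst hm2
      obtain ⟨hq, ht⟩ := h2 rfl
      exact offDiag_of_nonBlock_two hq hD ht π M hB
        (fun h i j hij hw hw0 x hx hψ => offDiag_of_center hD hm π M hB h i j hij hw hw0 x hx hψ)
        (fun h i j hij hχ hχ0 hu => offDiag_of_axis hD hm π M hB h i j hij hχ hχ0 hu)
        (fun k r hkr x₁ hx₁ χ₁ hχ₁ h₁ x₂ hx₂ χ₂ hχ₂ h₂ a ha =>
          exists_dil M hM k r hkr x₁ hx₁ χ₁ hχ₁ h₁ x₂ hx₂ χ₂ hχ₂ h₂ a ha) hTX hnb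
  obtain ⟨i, j, hij, w, hw, hw0, χ, hχ, hχ0, hT⟩ := hoff
  have hE := EE_all M (fun σ => exists_perm hD (by omega) M hM σ) hij
    (EE_of_one hD hm π M hB hij hw hw0 hχ hχ0 hT)
  exact transvection_mem_of_EE hD π M hB hE f v hfv

/-- The case `m ≥ 2` of S5634. -/
theorem maximal_ge_two {F : Type*} [Field F] [Fintype F] {n t m : ℕ} (hn : 6 ≤ n) (hm : 2 ≤ m)
    (D : Fin t → Submodule F (Fin n → F)) (hD : Cfsg.Geo.IsMDecomposition m D)
    (h2 : ¬ (m = 2 ∧ Fintype.card F = 2)) :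
    Cfsg.Geo.IsMaximalIn (Cfsg.Geo.specialLinear (Fin n) F)
      (Cfsg.Geo.decompositionStabilizer D ⊓ Cfsg.Geo.specialLinear (Fin n) F) := by
  have hcnt := mul_eq_of_isMDecomposition D hD
  refine maximal_of_abstract (by omega) D hD ?_ ?_
  · intro hD'
    obtain ⟨π⟩ := nonempty_proj hD'
    exact exists_not_stabD hD' (by omega) π
  · intro hD' M hM g hg hgs f v hfv
    refine transvection_mem_of_not_stabD hD' hm ?_ M hM g hg hgs f v hfv
    intro hm2
    have h1 : 1 < Fintype.card F := Fintype.one_lt_card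
    refine ⟨?_, ?_⟩
    · by_contra hlt
      exact h2 ⟨hm2, by omega⟩
    · subst hm2; omega

end Cfsg.Agent.Lib.Helper90.C2
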